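import Cfsg.Agent.PushUp.Sit

/-!
The index of the core in the Sylow subgroup, and sections of chief series.
-/

set_option autoImplicit false
set_option linter.style.haveILetI false
set_option linter.unusedSectionVars false

open Subgroup
open scoped commutatorElement

namespace Cfsg.Agent.PushUp

open LAE62

universe u

variable {G : Type u} [Group G]

theorem card_sylow_image {X : Type u} [Group X] [Finite X] {F : Type} [Field F] [Fintype F] {p n : ℕ}
    [Fact p.Prime] (hF : Fintype.card F = p ^ n)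
    (π : Matrix.SpecialLinearGroup (Fin 2) F →* X) (hπ : Function.Surjective π)
    (hker : π.ker ≤ Subgroup.center (Matrix.SpecialLinearGroup (Fin 2) F)) (U : Sylow p X) :
    Nat.card (U : Subgroup X) = p ^ n := by
  obtain ⟨U₀, hU₀, -⟩ := sl2_image_aux hF π hπ hker
  rw [U.card_eq_multiplicity, ← U₀.card_eq_multiplicity, hU₀, MonoidHom.map_range,
    ← Nat.card_congr (MonoidHom.ofInjective (f := π.comp upHom) ?_).toEquiv]
  · rw [Nat.card_congr Multiplicative.toAdd, Nat.card_eq_fintype_card, hF]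
  · intro a b h
    have hmem : (upHom a)⁻¹ * upHom b ∈ π.ker := by
      rw [MonoidHom.mem_ker, map_mul, map_inv]
      exact inv_mul_eq_one.2 h
    rw [← map_inv, ← map_mul] at hmem
    have h2 := congrArg (fun g : Matrix.SpecialLinearGroup (Fin 2) F => g 0 0)
      (Subgroup.mem_center_iff.1 (hker hmem) (loU 1))
    simp [upHom, loU_coe, upU_coe, Matrix.mul_apply, Fin.sum_univ_two] at h2
    refine Multiplicative.toAdd.injective ?_
    linear_combination -h2

/-- The index of `O_p(G)` in a Sylow subgroup is the order of the field. -/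
theorem relIndex_eq_pow [Finite G] {p : ℕ} [Fact p.Prime] (S : Sylow p G) {M : Subgroup G}
    (B : Base p (S : Subgroup G) (Cfsg.pCore p G) M) (K : Subgroup G) [hK : K.Normal] (F : Type)
    [Field F] [Fintype F] {n : ℕ} (hF : Fintype.card F = p ^ n)
    (hE₃ : Nonempty (G ⧸ K ≃* Matrix.ProjectiveSpecialLinearGroup (Fin 2) F)) :
    (Cfsg.pCore p G).relIndex S = p ^ n := by
  obtain ⟨e⟩ := hE₃
  let f := QuotientGroup.mk' K
  have hf : Function.Surjective f := QuotientGroup.mk'_surjective K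
  let π : Matrix.SpecialLinearGroup (Fin 2) F →* G ⧸ K :=
    e.symm.toMonoidHom.comp (QuotientGroup.mk' (Subgroup.center (Matrix.SpecialLinearGroup (Fin 2) F)))
  have hπ : Function.Surjective π := e.symm.surjective.comp (QuotientGroup.mk'_surjective _)
  have hker : π.ker ≤ Subgroup.center _ := fun z hz =>
    (QuotientGroup.eq_one_iff z).1 (e.symm.injective (by simpa [π] using hz))
  obtain ⟨-, hdich, ⟨w, hw⟩, -⟩ := sl2_image_facts hF π hπ hker (S.mapSurjective hf)
  rw [Sylow.coe_mapSurjective] at hdich hw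
  set U := (S : Subgroup G).map f with hU
  set O := Cfsg.pCore p G
  have hOK : O ≤ K := by
    intro a ha
    refine (QuotientGroup.eq_one_iff a).1 ?_
    obtain ⟨g, hg⟩ := hf w
    have h2 := ((hdich w).resolve_left hw).1
    have hmem : f a ∈ U ⊓ U.map (MulAut.conj w).toMonoidHom := by
      refine ⟨⟨a, B.le ha, rfl⟩, f (g⁻¹ * a * g),
        ⟨_, B.le (by simpa using B.conj_mem_Q ha g⁻¹), rfl⟩, ?_⟩
      rw [← hg]; simp [mul_assoc]
    rwa [h2, Subgroup.mem_bot] at hmem
  have hSK : (S : Subgroup G) ⊓ K ≤ O := by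
    rintro x ⟨hx, hxK⟩
    by_contra hxO
    apply hw
    have h1 := B.cover K hK x hx hxK hxO
    have : U = ⊤ := by
      rw [hU, ← Subgroup.map_top_of_surjective f hf, ← h1, Subgroup.map_sup,
        show K.map f = ⊥ from (Subgroup.map_eq_bot_iff _).2 (QuotientGroup.ker_mk' K).ge, bot_sup_eq]
    rw [this]
    exact le_normalizer (Subgroup.mem_top w)
  have hcard := card_sylow_image hF π hπ hker (S.mapSurjective hf)
  rw [Sylow.coe_mapSurjective, ← Subgroup.relIndex_ker, QuotientGroup.ker_mk',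
    ← Subgroup.inf_relIndex_right,
    le_antisymm (fun x hx => hSK ⟨hx.2, hx.1⟩) (le_inf hOK B.le)] at hcard
  exact hcard

theorem iterCommutator_mono {U Q : Subgroup G} (h : U ≤ Q) :
    ∀ k, Cfsg.iterCommutator U ⊤ k ≤ Cfsg.iterCommutator Q ⊤ k
  | 0 => h
  | k + 1 => Subgroup.commutator_mono (iterCommutator_mono h k) le_rfl

theorem iterCommutator_le_self {U : Subgroup G} (hU : U.Normal) :
    ∀ k, Cfsg.iterCommutator U ⊤ k ≤ U
  | 0 => le_rfl
  | k + 1 => (Subgroup.commutator_mono (iterCommutator_le_self hU k) le_rfl).trans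
      (haveI := hU; Subgroup.commutator_le_left U ⊤)

theorem iterCommutator_normal {U : Subgroup G} (hU : U.Normal) :
    ∀ k, (Cfsg.iterCommutator U ⊤ k).Normal
  | 0 => hU
  | k + 1 => @Subgroup.commutator_normal _ _ _ _ (iterCommutator_normal hU k) _

/-- A noncentral chief factor survives in every hypercentral cofactor. -/
theorem sup_eq_of_chief {U U₀ A : Subgroup G} (h : Cfsg.IsChiefFactor U U₀)
    (hnc : ¬ ⁅U, (⊤ : Subgroup G)⁆ ≤ U₀) (hA : A.Normal) {k : ℕ}
    (hk : Cfsg.iterCommutator U ⊤ k ≤ A) : (U ⊓ A) ⊔ U₀ = U := by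
  obtain ⟨hlt, hUn, hU₀n, hmin⟩ := h
  haveI := hUn; haveI := hU₀n; haveI := hA
  rcases hmin ((U ⊓ A) ⊔ U₀) inferInstance le_sup_right (sup_le inf_le_left hlt.le) with h1 | h1
  swap
  · exact h1
  exfalso
  have hUG : ⁅U, (⊤ : Subgroup G)⁆ ⊔ U₀ = U := by
    rcases hmin (⁅U, (⊤ : Subgroup G)⁆ ⊔ U₀) inferInstance le_sup_right
      (sup_le (Subgroup.commutator_le_left U ⊤) hlt.le) with h2 | h2
    · exact absurd (le_sup_left.trans h2.le) hnc
    · exact h2
  have hstep : ∀ i, U ≤ Cfsg.iterCommutator U ⊤ i ⊔ U₀ := by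
    intro i
    induction i with
    | zero => exact le_sup_left
    | succ i ih =>
      have h3 : ⁅U, (⊤ : Subgroup G)⁆ ≤ Cfsg.iterCommutator U ⊤ (i + 1) ⊔ U₀ := by
        haveI := iterCommutator_normal hUn (i + 1)
        rw [Subgroup.commutator_le]
        intro a ha g hg
        have ha' := ih ha
        haveI := iterCommutator_normal hUn i
        obtain ⟨c, hc, d, hd, rfl⟩ := Subgroup.mem_sup_of_normal_right.1 ha'
        have e : ⁅c * d, g⁆ = c * ⁅d, g⁆ * c⁻¹ * ⁅c, g⁆ := by simp only [commutatorElement_def]; group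
        rw [e]
        refine mul_mem (mem_sup_right (hU₀n.conj_mem _ ?_ c))
          (mem_sup_left (Subgroup.commutator_mem_commutator hc hg))
        rw [commutatorElement_def, mul_assoc, mul_assoc]
        exact mul_mem hd (by simpa [mul_assoc] using hU₀n.conj_mem _ (inv_mem hd) g)
      exact hUG.ge.trans (sup_le h3 le_sup_right)
  have h4 : Cfsg.iterCommutator U ⊤ k ≤ (U ⊓ A) ⊔ U₀ :=
    (le_inf (iterCommutator_le_self hUn k) hk).trans le_sup_left
  have h5 := (hstep k).trans (sup_le h4 le_sup_right)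
  rw [h1] at h5
  exact hlt.not_ge h5

/-- Comparing a noncentral chief factor with an irreducible layer. -/
theorem chief_layer {U U₀ A B' : Subgroup G} (h : Cfsg.IsChiefFactor U U₀) (hA : A.Normal)
    (hB : B'.Normal) (hBA : B' ≤ A) (hAU : (U ⊓ A) ⊔ U₀ = U)
    (hirr : ∀ X : Subgroup G, X.Normal → B' ≤ X → X ≤ A → X = B' ∨ X = A) :
    (U ⊓ B') ⊔ U₀ = U ∨
      ((U ⊓ A) ⊔ B' = A ∧ (U ⊓ A) ⊓ B' = (U ⊓ A) ⊓ U₀) := by
  obtain ⟨hlt, hUn, hU₀n, hmin⟩ := h
  haveI := hUn; haveI := hU₀n; haveI := hA; haveI := hB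
  rcases hmin ((U ⊓ B') ⊔ U₀) inferInstance le_sup_right (sup_le inf_le_left hlt.le) with h1 | h1
  swap
  · exact Or.inl h1
  right
  have hXB : (U ⊓ A) ⊓ B' ≤ U₀ := fun x hx =>
    h1.le (mem_sup_left ⟨hx.1.1, hx.2⟩)
  rcases hirr ((U ⊓ A) ⊔ B') inferInstance le_sup_right (sup_le inf_le_right hBA) with h2 | h2
  · exfalso
    refine hlt.not_ge ?_
    rw [← hAU]
    exact sup_le (fun x hx => hXB ⟨hx, h2.le (mem_sup_left hx)⟩) le_rfl
  refine ⟨h2, le_antisymm (le_inf inf_le_left hXB) (le_inf inf_le_left ?_)⟩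
  rcases hirr (((U ⊓ A) ⊓ U₀) ⊔ B') inferInstance le_sup_right
      (sup_le (inf_le_left.trans inf_le_right) hBA) with h3 | h3
  · exact le_sup_left.trans h3.le
  · exfalso
    refine hlt.not_ge ?_
    rw [← hAU]
    refine sup_le (fun x hx => ?_) le_rfl
    obtain ⟨a, ha, c, hc, rfl⟩ := Subgroup.mem_sup_of_normal_right.1 (h3.ge hx.2 : x ∈ ((U ⊓ A) ⊓ U₀) ⊔ B')
    refine U₀.mul_mem ha.2 (hXB ⟨?_, hc⟩)
    exact ((U ⊓ A).mul_mem_cancel_left ha.1).1 hx

end Cfsg.Agent.PushUp
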