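import Cfsg.Agent.PushUp.Sit
import Cfsg.Agent.FFTorus.Field
import Mathlib.FieldTheory.Finite.GaloisField

/-!
Natural modules for `SL₂` inside pushing up: recognition, irreducibility and transport along isomorphic sections.
-/

set_option autoImplicit false
set_option linter.style.haveILetI false

open Subgroup
open scoped commutatorElement

namespace Cfsg.Agent.PushUp

open LAE62
open LAE79 (fixV mem_fixV)

universe u

variable {G : Type u} [Group G]

/-- `W / N` is a natural `SL₂(F)` module for `G` with kernel `Q`. -/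
def NatSection (F : Type) [Field F] (Q W N : Subgroup G) : Prop :=
  N ≤ W ∧ ∃ (ρ : G →* Matrix.SpecialLinearGroup (Fin 2) F) (ψ : Additive ↥W →+ (Fin 2 → F)),
    Function.Surjective ρ ∧ ρ.ker = Q ∧ Function.Surjective ψ ∧
      (∀ w : ↥W, ψ (Additive.ofMul w) = 0 ↔ (w : G) ∈ N) ∧
      ∀ (g : G) (w w' : ↥W), (w' : G) = g * w * g⁻¹ →
        ψ (Additive.ofMul w') = (ρ g : Matrix (Fin 2) (Fin 2) F).mulVec (ψ (Additive.ofMul w))

/-- An invariant additive subgroup of `F²` is trivial or everything. -/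
theorem eq_zero_or_forall_of_invariant {F : Type*} [Field F] (L : AddSubgroup (Fin 2 → F))
    (hL : ∀ (m : Matrix.SpecialLinearGroup (Fin 2) F), ∀ v ∈ L,
      (m : Matrix (Fin 2) (Fin 2) F).mulVec v ∈ L) :
    (∀ v ∈ L, v = 0) ∨ ∀ v, v ∈ L := by
  by_cases h : ∀ v ∈ L, v = 0
  · exact Or.inl h
  refine Or.inr ?_
  push Not at h
  obtain ⟨v, hv, hv0⟩ := h
  have up : ∀ (t : F) (w : Fin 2 → F), w ∈ L → (![t * w 1, 0] : Fin 2 → F) ∈ L := by
    intro t w hw
    have hm := hL ⟨!![1, t; 0, 1], by simp [Matrix.det_fin_two_of]⟩ w hw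
    have := sub_mem hm hw
    convert this using 1
    ext i; fin_cases i <;> simp [Matrix.vecHead, Matrix.vecTail]
  have down : ∀ (t : F) (w : Fin 2 → F), w ∈ L → (![0, t * w 0] : Fin 2 → F) ∈ L := by
    intro t w hw
    have hm := hL ⟨!![1, 0; t, 1], by simp [Matrix.det_fin_two_of]⟩ w hw
    have := sub_mem hm hw
    convert this using 1
    ext i; fin_cases i <;> simp [Matrix.vecHead, Matrix.vecTail]
  obtain ⟨a, ha, ha1⟩ : ∃ a ∈ L, a 1 ≠ 0 := by
    by_cases h1 : v 1 = 0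
    · have h0 : v 0 ≠ 0 := fun h0 => hv0 (by ext i; fin_cases i <;> simp [h0, h1])
      exact ⟨_, down 1 v hv, by simpa using h0⟩
    · exact ⟨v, hv, h1⟩
  intro w
  have hA : (![w 0, 0] : Fin 2 → F) ∈ L := by
    simpa [div_mul_cancel₀ _ ha1] using up (w 0 / a 1) a ha
  have hB : (![1, 0] : Fin 2 → F) ∈ L := by
    simpa [inv_mul_cancel₀ ha1] using up (1 / a 1) a ha
  have hC : (![0, w 1] : Fin 2 → F) ∈ L := by simpa using down (w 1) _ hB
  convert add_mem hA hC using 1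
  ext i; fin_cases i <;> simp

namespace NatSection

variable {F : Type} [Field F] {Q W N : Subgroup G} (h : NatSection F Q W N)
include h

theorem mem_kernel_iff (g : G) [hW : W.Normal] :
    (∀ w ∈ W, ⁅g, w⁆ ∈ N) ↔ g ∈ Q := by
  obtain ⟨hle, ρ, ψ, hρ, hker, hψ, hψ0, heq⟩ := h
  have key : ∀ w : ↥W, ⁅g, (w : G)⁆ ∈ N ↔
      (ρ g : Matrix (Fin 2) (Fin 2) F).mulVec (ψ (Additive.ofMul w)) = ψ (Additive.ofMul w) := by
    intro w
    have h1 := hψ0 (⟨g * w * g⁻¹, hW.conj_mem _ w.2 g⟩ * w⁻¹)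
    rw [ofMul_mul, ofMul_inv, map_add, map_neg, heq g w _ rfl, ← sub_eq_add_neg, sub_eq_zero] at h1
    rw [h1, commutatorElement_def]
    rfl
  constructor
  · intro hg
    rw [← hker, MonoidHom.mem_ker]
    refine Subtype.ext ?_
    refine Matrix.toLin'.injective (LinearMap.ext fun v => ?_)
    obtain ⟨w, rfl⟩ := hψ v
    rw [Matrix.toLin'_apply, Matrix.toLin'_apply, Matrix.SpecialLinearGroup.coe_one, Matrix.one_mulVec]
    exact (key w.toMul).1 (hg _ w.toMul.2)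
  · intro hg w hw
    rw [← hker, MonoidHom.mem_ker] at hg
    refine (key ⟨w, hw⟩).2 ?_
    rw [hg, Matrix.SpecialLinearGroup.coe_one, Matrix.one_mulVec]

theorem quotientEquiv [Q.Normal] : Nonempty (G ⧸ Q ≃* Matrix.SpecialLinearGroup (Fin 2) F) := by
  obtain ⟨hle, ρ, ψ, hρ, hker, -⟩ := h
  exact ⟨(QuotientGroup.quotientMulEquivOfEq hker.symm).trans
    (QuotientGroup.quotientKerEquivOfSurjective ρ hρ)⟩

theorem natural [hN : N.Normal] [hW : W.Normal] :
    Cfsg.IsNaturalSL2Module F (W.map (QuotientGroup.mk' N)) (⊤ : Subgroup (G ⧸ N)) := by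
  classical
  have hker' := h.mem_kernel_iff
  obtain ⟨hle, ρ, ψ, hρ, hker, hψ, hψ0, heq⟩ := h
  set π := QuotientGroup.mk' N
  have hNQ : N ≤ ρ.ker := fun n hn => hker ▸ (hker' n).1 fun w hw => by
    rw [commutatorElement_def, mul_assoc, mul_assoc]
    exact mul_mem hn (by simpa [mul_assoc] using hN.conj_mem _ (inv_mem hn) w)
  haveI := hW.map π (QuotientGroup.mk'_surjective N)
  refine ⟨by rw [normalizer_eq_top], ?_⟩
  have hsame : ∀ w w' : ↥W, π (w : G) = π (w' : G) → ψ (Additive.ofMul w) = ψ (Additive.ofMul w') := by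
    intro w w' e
    have h1 := (hψ0 (w * w'⁻¹)).2 (by
      rw [← QuotientGroup.eq_one_iff]
      show π ((w : G) * (w' : G)⁻¹) = 1
      rw [map_mul, map_inv, e, mul_inv_cancel])
    rwa [ofMul_mul, ofMul_inv, map_add, map_neg, ← sub_eq_add_neg, sub_eq_zero] at h1
  choose pre hpre using fun y : ↥(W.map π) => y.2
  let P : ↥(W.map π) → ↥W := fun y => ⟨pre y, (hpre y).1⟩
  have hP : ∀ y, π (P y : G) = (y : G ⧸ N) := fun y => (hpre y).2
  let f : Additive ↥(W.map π) →+ (Fin 2 → F) := AddMonoidHom.mk'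
    (fun y => ψ (Additive.ofMul (P y.toMul))) fun a b => by
      rw [← map_add, ← ofMul_mul]
      refine hsame _ _ ?_
      rw [Subgroup.coe_mul, map_mul, hP, hP, hP]
      rfl
  have hf : Function.Bijective f := by
    constructor
    · refine (injective_iff_map_eq_zero f).2 fun y hy => ?_
      refine Additive.toMul.injective (Subtype.ext ?_)
      rw [← hP y.toMul]
      exact (QuotientGroup.eq_one_iff _).2 ((hψ0 _).1 hy)
    · intro v
      obtain ⟨w, rfl⟩ := hψ v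
      refine ⟨Additive.ofMul ⟨π (w.toMul : G), _, w.toMul.2, rfl⟩, ?_⟩
      exact hsame _ _ (hP _)
  let ρq : G ⧸ N →* Matrix.SpecialLinearGroup (Fin 2) F := QuotientGroup.lift N ρ hNQ
  have hρq : ∀ g : G, ρq (π g) = ρ g := fun g => rfl
  refine ⟨ρq.comp (⊤ : Subgroup (G ⧸ N)).subtype, AddEquiv.ofBijective f hf, fun m => ?_, ?_, ?_⟩
  · obtain ⟨g, rfl⟩ := hρ m
    exact ⟨⟨π g, mem_top _⟩, hρq g⟩
  · ext ⟨x, hx⟩
    obtain ⟨g, rfl⟩ := QuotientGroup.mk'_surjective N x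
    rw [MonoidHom.mem_ker, mem_subgroupOf, mem_centralizer_iff]
    show ρ g = 1 ↔ _
    rw [← MonoidHom.mem_ker, hker, ← hker' g]
    constructor
    · rintro hg _ ⟨w, hw, rfl⟩
      have := (QuotientGroup.eq_one_iff _).2 (hg w hw)
      have h2 : ⁅π g, π w⁆ = 1 := by rw [← map_commutatorElement]; exact this
      exact (commutatorElement_eq_one_iff_mul_comm.1 h2).symm
    · intro hg w hw
      rw [← QuotientGroup.eq_one_iff]
      show π ⁅g, w⁆ = 1
      rw [map_commutatorElement, commutatorElement_eq_one_iff_mul_comm]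
      exact (hg _ ⟨w, hw, rfl⟩).symm
  · rintro ⟨x, hx⟩ y
    obtain ⟨g, rfl⟩ := QuotientGroup.mk'_surjective N x
    refine ⟨⟨π (g * (P y : G) * g⁻¹), _, hW.conj_mem _ (P y).2 g, rfl⟩, ?_, ?_⟩
    · show π (g * (P y : G) * g⁻¹) = π g * (y : G ⧸ N) * (π g)⁻¹
      rw [map_mul, map_mul, map_inv, hP]
    · refine (hsame _ ⟨g * (P y : G) * g⁻¹, hW.conj_mem _ (P y).2 g⟩ (hP _)).trans ?_
      exact heq g (P y) _ rfl

theorem irreducible [hW : W.Normal] (U : Subgroup G) [hU : U.Normal] (hNU : N ≤ U) (hUW : U ≤ W) :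
    U = N ∨ U = W := by
  obtain ⟨hle, ρ, ψ, hρ, hker, hψ, hψ0, heq⟩ := h
  let L : AddSubgroup (Fin 2 → F) :=
    { carrier := {v | ∃ w : ↥W, (w : G) ∈ U ∧ ψ (Additive.ofMul w) = v}
      zero_mem' := ⟨1, one_mem _, by rw [ofMul_one, map_zero]⟩
      add_mem' := fun {a b} ⟨x, hx, ex⟩ ⟨y, hy, ey⟩ =>
        ⟨x * y, mul_mem hx hy, by rw [ofMul_mul, map_add, ex, ey]⟩
      neg_mem' := fun {a} ⟨x, hx, ex⟩ => ⟨x⁻¹, inv_mem hx, by rw [ofMul_inv, map_neg, ex]⟩ }
  rcases eq_zero_or_forall_of_invariant L fun m v hv => by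
    obtain ⟨g, rfl⟩ := hρ m
    obtain ⟨w, hw, rfl⟩ := hv
    exact ⟨⟨g * w * g⁻¹, hW.conj_mem _ w.2 g⟩, hU.conj_mem _ hw g, heq g w _ rfl⟩ with h0 | h1
  · exact Or.inl (le_antisymm (fun u hu => (hψ0 ⟨u, hUW hu⟩).1 (h0 _ ⟨⟨u, hUW hu⟩, hu, rfl⟩)) hNU)
  · refine Or.inr (le_antisymm hUW fun w hw => ?_)
    obtain ⟨u, hu, he⟩ := h1 (ψ (Additive.ofMul ⟨w, hw⟩))
    have h2 : ((u⁻¹ * ⟨w, hw⟩ : ↥W) : G) ∈ N := (hψ0 _).1 (by
      rw [ofMul_mul, ofMul_inv, map_add, map_neg, he, neg_add_cancel])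
    have := mul_mem hu (hNU h2)
    simpa using this

theorem transport (U V W' : Subgroup G) [hV : V.Normal] [hW' : W'.Normal] (hVU : V ≤ U)
    (hW'W : W' ≤ W) (hsup : W' ⊔ N = W) [hN : N.Normal] (hW'U : W' ≤ U) (hsupU : W' ⊔ V = U)
    (hinf : W' ⊓ N = W' ⊓ V) : NatSection F Q U V := by
  classical
  obtain ⟨hle, ρ, ψ, hρ, hker, hψ, hψ0, heq⟩ := h
  have hdec : ∀ u : ↥U, ∃ w : ↥W', (w : G)⁻¹ * (u : G) ∈ V := by
    intro u
    have hu : (u : G) ∈ W' ⊔ V := hsupU.symm ▸ u.2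
    obtain ⟨a, ha, b, hb, e⟩ := Subgroup.mem_sup_of_normal_right.1 hu
    exact ⟨⟨a, ha⟩, by rw [← e]; simpa using hb⟩
  choose dec hdec using hdec
  let ι : ↥W' → Additive ↥W := fun w => Additive.ofMul ⟨(w : G), hW'W w.2⟩
  have hsame : ∀ a b : ↥W', (a : G)⁻¹ * (b : G) ∈ V → ψ (ι a) = ψ (ι b) := by
    intro a b hab
    have h1 : (a : G)⁻¹ * (b : G) ∈ N :=
      (hinf.symm.le (Subgroup.mem_inf.2 ⟨W'.mul_mem (W'.inv_mem a.2) b.2, hab⟩)).2
    have h2 := (hψ0 (⟨(a : G), hW'W a.2⟩⁻¹ * ⟨(b : G), hW'W b.2⟩)).2 h1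
    rw [ofMul_mul, ofMul_inv, map_add, map_neg, neg_add_eq_zero] at h2
    exact h2
  have hψ' : ∀ (u : ↥U) (a : ↥W'), (a : G)⁻¹ * (u : G) ∈ V → ψ (ι (dec u)) = ψ (ι a) := by
    intro u a ha
    refine hsame _ _ ?_
    have := mul_mem (hdec u) (inv_mem ha)
    simpa [mul_assoc] using this
  let f : Additive ↥U →+ (Fin 2 → F) := AddMonoidHom.mk'
    (fun u => ψ (ι (dec u.toMul))) fun a b => by
      rw [← map_add]
      refine hψ' (a + b).toMul (dec a.toMul * dec b.toMul) ?_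
      have h1 := hV.conj_mem _ (hdec a.toMul) ((dec b.toMul : G))⁻¹
      have h2 := mul_mem h1 (hdec b.toMul)
      rw [Subgroup.coe_mul, mul_inv_rev, toMul_add, Subgroup.coe_mul]
      simpa [mul_assoc] using h2
  refine ⟨hVU, ρ, f, hρ, hker, fun v => ?_, fun u => ?_, fun g u u' hu' => ?_⟩
  · obtain ⟨w, rfl⟩ := hψ v
    have hw : (w.toMul : G) ∈ W' ⊔ N := hsup.symm ▸ w.toMul.2
    obtain ⟨a, ha, b, hb, e⟩ := Subgroup.mem_sup_of_normal_right.1 hw
    refine ⟨Additive.ofMul ⟨a, hW'U ha⟩, (hψ' _ ⟨a, ha⟩ (by simp)).trans ?_⟩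
    have h2 := (hψ0 (⟨a, hW'W ha⟩⁻¹ * w.toMul)).2 (by
      show a⁻¹ * (w.toMul : G) ∈ N
      rw [← e]; simpa using hb)
    rw [ofMul_mul, ofMul_inv, map_add, map_neg, neg_add_eq_zero] at h2
    exact h2
  · show ψ (ι (dec u)) = 0 ↔ _
    rw [hψ0]
    constructor
    · intro hn
      have : (dec u : G) ∈ V := (hinf.le ⟨(dec u).2, hn⟩).2
      simpa using mul_mem this (hdec u)
    · intro hu
      have : (dec u : G) ∈ V := by
        have := mul_mem hu (inv_mem (hdec u))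
        simpa using this
      exact (hinf.symm.le ⟨(dec u).2, this⟩).2
  · show ψ (ι (dec u')) = _
    refine (hψ' u' ⟨g * (dec u : G) * g⁻¹, hW'.conj_mem _ (dec u).2 g⟩ ?_).trans ?_
    · show (g * (dec u : G) * g⁻¹)⁻¹ * (u' : G) ∈ V
      rw [hu']
      simpa [mul_assoc] using hV.conj_mem _ (hdec u) g
    · exact heq g _ _ rfl

end NatSection

/-- Recognition of a natural section in the pushing-up situation. -/
theorem natSection_of_quadratic [Finite G] {p : ℕ} [Fact p.Prime] {S Q M : Subgroup G} (B : Base p S Q M)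
    (F : Type) [Field F] [Fintype F] (hF : Fintype.card F = Q.relIndex S) (W N : Subgroup G) [N.Normal]
    (hW : W.Normal) (hNW : N ≤ W)
    (hker : ∀ g : G, (∀ w ∈ W, ⁅g, w⁆ ∈ N) ↔ g ∈ Q) (hcomm : ∀ a ∈ W, ∀ c ∈ W, ⁅a, c⁆ ∈ N)
    (hexp : ∀ w ∈ W, w ^ p ∈ N) (hfix : ∀ w ∈ W, (∀ g : G, ⁅g, w⁆ ∈ N) → w ∈ N)
    (hquad : ∀ s ∈ S, ∀ t ∈ S, ∀ w ∈ W, ⁅t, ⁅s, w⁆⁆ ∈ N)
    (Z : Subgroup G) (hNZ : N ≤ Z) (_hZW : Z ≤ W) (hZq : Z.relIndex W ≤ Q.relIndex S)
    (hZfix : ∀ z ∈ Z, ∀ s ∈ S, ⁅s, z⁆ ∈ N) : NatSection F Q W N := by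
  classical
  haveI := B.normal
  haveI := hW
  set N' := N.subgroupOf W with hN'
  have hqeq : ∀ a b : ↥W, ((a : ↥W ⧸ N') = b) ↔ (a : G) * (b : G)⁻¹ ∈ N := fun a b => by
    rw [QuotientGroup.eq_iff_div_mem, hN', mem_subgroupOf, div_eq_mul_inv]
    rfl
  have hq1 : ∀ a : ↥W, ((a : ↥W ⧸ N') = 1) ↔ (a : G) ∈ N := fun a => by
    rw [QuotientGroup.eq_one_iff, hN', mem_subgroupOf]
  letI : CommGroup (↥W ⧸ N') :=
    { (inferInstance : Group (↥W ⧸ N')) with
      mul_comm := by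
        intro x y
        obtain ⟨a, rfl⟩ := QuotientGroup.mk'_surjective N' x
        obtain ⟨b, rfl⟩ := QuotientGroup.mk'_surjective N' y
        rw [← map_mul, ← map_mul]
        refine (hqeq _ _).2 ?_
        have := hcomm a a.2 b b.2
        rw [commutatorElement_def] at this
        simpa [mul_assoc] using this }
  let cj : G → ↥W →* ↥W := fun g => (MulAut.conjNormal g : ↥W ≃* ↥W).toMonoidHom
  have hcj : ∀ g (w : ↥W), (cj g w : G) = g * w * g⁻¹ := fun g w => MulAut.conjNormal_apply g w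
  let φ : G → (↥W ⧸ N') →* (↥W ⧸ N') := fun g => QuotientGroup.map N' N' (cj g) fun w hw => by
    rw [mem_comap, hN', mem_subgroupOf, hcj]
    exact (inferInstance : N.Normal).conj_mem _ hw g
  have hφ : ∀ g (w : ↥W), φ g (w : ↥W ⧸ N') = ((cj g w : ↥W) : ↥W ⧸ N') := fun _ _ => rfl
  have hφQ : ∀ g g' : G, g⁻¹ * g' ∈ Q → φ g = φ g' := by
    intro g g' hg
    refine QuotientGroup.monoidHom_ext _ (MonoidHom.ext fun w => ?_)
    show φ g (w : ↥W ⧸ N') = φ g' (w : ↥W ⧸ N')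
    rw [hφ, hφ, eq_comm, hqeq, hcj, hcj]
    have h1 := (hker _).2 hg w w.2
    rw [commutatorElement_def] at h1
    have h2 := (inferInstance : N.Normal).conj_mem _ h1 g
    simpa [mul_assoc] using h2
  letI act : DistribMulAction (G ⧸ Q) (Additive (↥W ⧸ N')) :=
    { smul := fun x v => Quotient.liftOn' x (fun g => Additive.ofMul (φ g v.toMul)) fun a b hab => by
        rw [hφQ a b (QuotientGroup.leftRel_apply.1 hab)]
      one_smul := fun v => by
        obtain ⟨w, hw⟩ := QuotientGroup.mk'_surjective N' v.toMul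
        show Additive.ofMul (φ 1 v.toMul) = v
        rw [← hw]
        have e1 : cj 1 w = w := Subtype.ext (by rw [hcj]; simp)
        exact Additive.toMul.injective ((congrArg (fun z : ↥W => (z : ↥W ⧸ N')) e1).trans hw)
      mul_smul := fun x y v => by
        obtain ⟨a, rfl⟩ := QuotientGroup.mk'_surjective Q x
        obtain ⟨b, rfl⟩ := QuotientGroup.mk'_surjective Q y
        obtain ⟨w, hw⟩ := QuotientGroup.mk'_surjective N' v.toMul
        show Additive.ofMul (φ (a * b) v.toMul) = Additive.ofMul (φ a (φ b v.toMul))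
        rw [← hw]
        exact congrArg (fun z : ↥W => Additive.ofMul (z : ↥W ⧸ N'))
          (Subtype.ext (by rw [hcj, hcj, hcj]; group))
      smul_zero := fun x => by
        obtain ⟨a, rfl⟩ := QuotientGroup.mk'_surjective Q x
        exact Additive.toMul.injective (map_one (φ a))
      smul_add := fun x u v => by
        obtain ⟨a, rfl⟩ := QuotientGroup.mk'_surjective Q x
        exact Additive.toMul.injective (map_mul (φ a) u.toMul v.toMul) }
  have hsm : ∀ (g : G) (w : ↥W), (QuotientGroup.mk' Q g) • Additive.ofMul (w : ↥W ⧸ N') =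
      Additive.ofMul ((cj g w : ↥W) : ↥W ⧸ N') := fun _ _ => rfl
  have hfixed : ∀ (g : G) (w : ↥W), (QuotientGroup.mk' Q g) • Additive.ofMul (w : ↥W ⧸ N') =
      Additive.ofMul (w : ↥W ⧸ N') ↔ ⁅g, (w : G)⁆ ∈ N := fun g w => by
    rw [hsm, Additive.ofMul.injective.eq_iff, hqeq, hcj, commutatorElement_def]
  have hrep : ∀ v : Additive (↥W ⧸ N'), ∃ w : ↥W, Additive.ofMul (w : ↥W ⧸ N') = v := fun v => by
    obtain ⟨w, hw⟩ := QuotientGroup.mk'_surjective N' v.toMul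
    exact ⟨w, congrArg Additive.ofMul hw⟩
  have hπ : Function.Surjective (QuotientGroup.mk' Q) := QuotientGroup.mk'_surjective Q
  let SS : Sylow p G := ⟨S, B.pgroup, fun {H} hH hS => B.sylow H hS hH⟩
  let T : Sylow p (G ⧸ Q) := SS.mapSurjective hπ
  set A : Subgroup (G ⧸ Q) := S.map (QuotientGroup.mk' Q) with hA
  have hTA : (T : Subgroup (G ⧸ Q)) = A := Sylow.coe_mapSurjective hπ SS
  have hAcard : Nat.card A = Q.relIndex S := by
    rw [hA, ← Subgroup.relIndex_ker, QuotientGroup.ker_mk']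
  have htop : ∀ H : Subgroup (G ⧸ Q), A ≤ H → ∀ g : G, g ∉ M →
      (∀ s ∈ S, QuotientGroup.mk' Q (g * s * g⁻¹) ∈ H) → H = ⊤ := by
    intro H hAH g hg hgH
    obtain ⟨x, hx, hxQ⟩ := SetLike.not_le_iff_exists.1 B.proper
    have h1 : cjm g S ⊔ zpowers x ≤ H.comap (QuotientGroup.mk' Q) := by
      refine sup_le ?_ (zpowers_le.2 (hAH ⟨x, hx, rfl⟩))
      rintro _ ⟨s, hs, rfl⟩
      simpa using hgH s hs
    rw [B.pu.gen x hx hxQ g hg, top_le_iff] at h1
    rw [← Subgroup.map_comap_eq_self_of_surjective hπ H, h1, Subgroup.map_top_of_surjective _ hπ]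
  set M' : Subgroup (G ⧸ Q) := M.map (QuotientGroup.mk' Q) with hM'
  have hQM : Q ≤ M := B.le.trans B.pu.le_max
  have hAM : A ≤ M' := Subgroup.map_mono B.pu.le_max
  have hM'top : M' ≠ ⊤ := fun e => B.pu.max_ne (by
    have := congrArg (Subgroup.comap (QuotientGroup.mk' Q)) e
    rwa [hM', Subgroup.comap_map_eq, QuotientGroup.ker_mk', sup_eq_left.2 hQM, comap_top] at this)
  have huniq : ∀ L : Subgroup (G ⧸ Q), L ≠ ⊤ → A ≤ L → L ≤ M' := by
    intro L hL hAL y hy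
    obtain ⟨g, rfl⟩ := hπ y
    refine ⟨g, ?_, rfl⟩
    by_contra hg
    refine hL (htop L hAL g hg fun s hs => ?_)
    rw [map_mul, map_mul, map_inv]
    exact mul_mem (mul_mem hy (hAL ⟨s, hs, rfl⟩)) (inv_mem hy)
  have hcoatom : IsCoatom M' := ⟨hM'top, fun L hL => by
    by_contra hne
    exact hL.not_ge (huniq L hne (hAM.trans hL.le))⟩
  have hWN : ¬ W ≤ N := fun hle => by
    apply B.proper
    intro s _
    refine (hker s).1 fun w hw => hle ?_
    rw [commutatorElement_def]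
    exact mul_mem (hW.conj_mem w hw s) (inv_mem hw)
  have hzero : fixV (V := Additive (↥W ⧸ N')) (⊤ : Subgroup (G ⧸ Q)) = ⊥ := by
    rw [eq_bot_iff]
    intro v hv
    obtain ⟨w, rfl⟩ := hrep v
    rw [AddSubgroup.mem_bot, ofMul_eq_zero, hq1]
    exact hfix w w.2 fun g => (hfixed g w).1 (hv _ trivial)
  have D : FFTorus.Setting (Additive (↥W ⧸ N')) p A M' T :=
    { faith := fun y hy => by
        obtain ⟨g, rfl⟩ := hπ y
        refine (QuotientGroup.eq_one_iff g).2 ((hker g).1 fun w hw => ?_)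
        exact (hfixed g ⟨w, hw⟩).1 (hy _)
      pgrp := fun v => ⟨1, by
        obtain ⟨w, rfl⟩ := hrep v
        rw [pow_one, ← ofMul_pow, ofMul_eq_zero, ← QuotientGroup.mk_pow, hq1, Subgroup.coe_pow]
        exact hexp w w.2⟩
      le := hTA.ge
      coatom := hcoatom
      TM := hTA.le.trans hAM
      uniq := fun L hL hTL => huniq L hL (hTA.ge.trans hTL)
      gen := fun x hx H hAH hxH => by
        obtain ⟨g, rfl⟩ := hπ x
        refine htop H hAH g (fun hg => hx ⟨g, hg, rfl⟩) fun s hs => ?_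
        rw [map_mul, map_mul, map_inv]
        exact hxH _ ⟨s, hs, rfl⟩
      quad := fun a ha b hb v => by
        obtain ⟨s, hs, rfl⟩ := ha
        obtain ⟨t, ht, rfl⟩ := hb
        obtain ⟨w, rfl⟩ := hrep v
        have he : (QuotientGroup.mk' Q s) • Additive.ofMul (w : ↥W ⧸ N') - Additive.ofMul (w : ↥W ⧸ N') =
            Additive.ofMul ((cj s w * w⁻¹ : ↥W) : ↥W ⧸ N') := by
          rw [hsm, QuotientGroup.mk_mul, QuotientGroup.mk_inv, ofMul_mul, ofMul_inv, sub_eq_add_neg]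
        rw [he]
        refine (hfixed t _).2 ?_
        have := hquad s hs t ht w w.2
        rwa [Subgroup.coe_mul, Subgroup.coe_inv, hcj, ← commutatorElement_def]
      off := by
        set Zb : Subgroup (↥W ⧸ N') := (Z.subgroupOf W).map (QuotientGroup.mk' N') with hZb
        have hidx : Zb.index = Z.relIndex W := by
          rw [hZb, Subgroup.index_map_eq _ (QuotientGroup.mk'_surjective N')
            (by rw [QuotientGroup.ker_mk']; exact fun w hw => hNZ hw)]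
          rfl
        have hsub : Nat.card Zb ≤ Nat.card (fixV (V := Additive (↥W ⧸ N')) A) := by
          refine Nat.card_le_card_of_injective (fun z => ⟨Additive.ofMul (z : ↥W ⧸ N'), ?_⟩) fun a b hab =>
            Subtype.ext (congrArg (fun x : fixV (V := Additive (↥W ⧸ N')) A => (x : Additive (↥W ⧸ N')).toMul) hab :)
          obtain ⟨w, hw, he⟩ := z.2
          rw [← he, mem_fixV]
          rintro _ ⟨s, hs, rfl⟩
          exact (hfixed s w).2 (hZfix w hw s hs)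
        rw [hAcard]
        calc Nat.card (Additive (↥W ⧸ N')) = Nat.card Zb * Zb.index := Zb.card_mul_index.symm
          _ ≤ Nat.card (fixV (V := Additive (↥W ⧸ N')) A) * Q.relIndex S :=
              Nat.mul_le_mul hsub (hidx.trans_le hZq)
          _ = _ := mul_comm _ _
      core := by
        rw [eq_bot_iff]
        rintro y ⟨⟨x, hx, rfl⟩, hy⟩
        rw [Subgroup.mem_bot, QuotientGroup.mk'_apply, QuotientGroup.eq_one_iff]
        by_contra hxQ
        haveI : (Cfsg.pCore p (G ⧸ Q)).Normal := inferInstance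
        have hK := B.cover ((Cfsg.pCore p (G ⧸ Q)).comap (QuotientGroup.mk' Q)) inferInstance x hx hy hxQ
        have hle : (Cfsg.pCore p (G ⧸ Q)).comap (QuotientGroup.mk' Q) ≤ S := by
          intro g hg
          have h1 : QuotientGroup.mk' Q g ∈ A := hTA.le (Cores.pCore_le_sylow T hg)
          obtain ⟨s, hs, e⟩ := h1
          have h2 : s⁻¹ * g ∈ Q := QuotientGroup.eq.1 e
          simpa using mul_mem hs (B.le h2)
        rw [sup_eq_right.2 hle] at hK
        exact B.pu.max_ne (eq_top_iff.2 (hK.ge.trans B.pu.le_max))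
      moved := by
        obtain ⟨w, hw, hwN⟩ := SetLike.not_le_iff_exists.1 hWN
        have hne : Additive.ofMul ((⟨w, hw⟩ : ↥W) : ↥W ⧸ N') ≠ 0 := fun e => hwN ((hq1 _).1 (ofMul_eq_zero.1 e))
        have hVp : IsPGroup p (↥W ⧸ N') := fun x => ⟨1, by
          obtain ⟨w, rfl⟩ := QuotientGroup.mk'_surjective N' x
          rw [pow_one, ← map_pow]
          exact (hq1 _).2 (by rw [Subgroup.coe_pow]; exact hexp w w.2)⟩
        have hdvd : p ∣ Nat.card (Additive (↥W ⧸ N')) := by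
          obtain ⟨k, hk⟩ := (IsPGroup.iff_card.1 hVp)
          haveI : Nontrivial (↥W ⧸ N') := ⟨⟨_, 1, fun e => hne (ofMul_eq_zero.2 e)⟩⟩
          have h1 : 1 < Nat.card (↥W ⧸ N') := Finite.one_lt_card
          show p ∣ Nat.card (↥W ⧸ N')
          rw [hk] at h1 ⊢
          exact dvd_pow_self p (fun e => by simp [e] at h1)
        obtain ⟨b, hb, hb0⟩ := T.2.exists_fixed_point_of_prime_dvd_card_of_fixed_point
          (Additive (↥W ⧸ N')) hdvd (a := 0) (fun g => smul_zero (g : G ⧸ Q))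
        exact ⟨b, fun g hg => hb ⟨g, hg⟩, by rw [hzero, AddSubgroup.mem_bot]; exact fun e => hb0 e.symm⟩ }
  obtain ⟨F', iF', iF't, hcard, ⟨ρ, ψ, hψ, hψ0, heq⟩, -⟩ := D.recognition
  let e : F' ≃+* F := FiniteField.ringEquivOfCardEq (hcard.trans (hAcard.trans hF.symm))
  let m : Matrix.SpecialLinearGroup (Fin 2) F' →* Matrix.SpecialLinearGroup (Fin 2) F :=
    Matrix.SpecialLinearGroup.map e.toRingHom
  have hminj : Function.Injective m := fun a b hab => Subtype.ext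
    (Matrix.map_injective e.injective (congrArg Subtype.val hab))
  have hmsurj : Function.Surjective m := fun b =>
    ⟨Matrix.SpecialLinearGroup.map e.symm.toRingHom b, Subtype.ext (by
      ext i j; exact e.apply_symm_apply _)⟩
  let ρ' : G →* Matrix.SpecialLinearGroup (Fin 2) F := m.comp (ρ.toMonoidHom.comp (QuotientGroup.mk' Q))
  let ψ' : Additive ↥W →+ (Fin 2 → F) := AddMonoidHom.mk'
    (fun w => e ∘ ψ (Additive.ofMul ((w.toMul : ↥W) : ↥W ⧸ N'))) fun a b => by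
      rw [toMul_add, QuotientGroup.mk_mul, ofMul_mul, map_add]
      ext i; simp
  refine ⟨hNW, ρ', ψ', hmsurj.comp (ρ.surjective.comp hπ), ?_, fun v => ?_, fun w => ?_, fun g w w' hw' => ?_⟩
  · ext g
    rw [MonoidHom.mem_ker]
    show m (ρ (QuotientGroup.mk' Q g)) = 1 ↔ _
    rw [map_eq_one_iff m hminj, map_eq_one_iff ρ ρ.injective, QuotientGroup.mk'_apply, QuotientGroup.eq_one_iff]
  · obtain ⟨v', hv'⟩ := hψ (e.symm ∘ v)
    obtain ⟨w, rfl⟩ := hrep v'
    refine ⟨Additive.ofMul w, ?_⟩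
    show e ∘ ψ (Additive.ofMul (w : ↥W ⧸ N')) = v
    rw [hv']; ext i; simp
  · show e ∘ ψ (Additive.ofMul (w : ↥W ⧸ N')) = 0 ↔ _
    rw [← hq1]
    constructor
    · intro h0
      have h1 : ψ (Additive.ofMul (w : ↥W ⧸ N')) = 0 := funext fun i =>
        e.map_eq_zero_iff.1 (congrFun h0 i)
      rw [hψ0, hzero, AddSubgroup.mem_bot, ofMul_eq_zero] at h1
      exact h1
    · intro h0
      rw [h0, ofMul_one, map_zero]
      ext i; simp
  · show e ∘ ψ (Additive.ofMul (w' : ↥W ⧸ N')) =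
      (m (ρ (QuotientGroup.mk' Q g)) : Matrix (Fin 2) (Fin 2) F).mulVec (e ∘ ψ (Additive.ofMul (w : ↥W ⧸ N')))
    have hw'' : w' = cj g w := Subtype.ext (by rw [hcj]; exact hw')
    rw [hw'', ← hsm, heq]
    ext i
    exact RingHom.map_mulVec e.toRingHom _ _ i

/-- The recognition lemma in group language. -/
theorem natural_factor [Finite G] {p : ℕ} [Fact p.Prime] {S Q M : Subgroup G} (B : Base p S Q M)
    [Q.Normal]
    (F : Type) [Field F] [Fintype F] (hF : Fintype.card F = Q.relIndex S) (W N : Subgroup G) [N.Normal]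
    (hW : W.Normal) (hNW : N ≤ W) (_hWQ : W ≤ Q)
    (hker : ∀ g : G, (∀ w ∈ W, ⁅g, w⁆ ∈ N) ↔ g ∈ Q) (hcomm : ∀ a ∈ W, ∀ c ∈ W, ⁅a, c⁆ ∈ N)
    (hexp : ∀ w ∈ W, w ^ p ∈ N) (hfix : ∀ w ∈ W, (∀ g : G, ⁅g, w⁆ ∈ N) → w ∈ N)
    (hquad : ∀ s ∈ S, ∀ t ∈ S, ∀ w ∈ W, ⁅t, ⁅s, w⁆⁆ ∈ N)
    (Z : Subgroup G) (hNZ : N ≤ Z) (hZW : Z ≤ W) (hZq : Z.relIndex W ≤ Q.relIndex S)
    (hZfix : ∀ z ∈ Z, ∀ s ∈ S, ⁅s, z⁆ ∈ N) :
    Nonempty (G ⧸ Q ≃* Matrix.SpecialLinearGroup (Fin 2) F) ∧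
      Cfsg.IsNaturalSL2Module F (W.map (QuotientGroup.mk' N)) (⊤ : Subgroup (G ⧸ N)) ∧
      ∀ U : Subgroup G, U.Normal → N ≤ U → U ≤ W → U = N ∨ U = W := by
  have h := natSection_of_quadratic B F hF W N hW hNW hker hcomm hexp hfix hquad Z hNZ hZW hZq hZfix
  haveI := hW
  exact ⟨h.quotientEquiv, h.natural, fun U hU => haveI := hU; h.irreducible U⟩

/-- A section `G`-isomorphic to a natural one is natural. -/
theorem natural_transport {F : Type} [Field F] {Q W N : Subgroup G} (h : NatSection F Q W N) [N.Normal]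
    (U V W' : Subgroup G) [U.Normal] [V.Normal] [W'.Normal] (hVU : V ≤ U) (hW'W : W' ≤ W)
    (hsup : W' ⊔ N = W) (hW'U : W' ≤ U) (hsupU : W' ⊔ V = U) (hinf : W' ⊓ N = W' ⊓ V) :
    Cfsg.IsNaturalSL2Module F (U.map (QuotientGroup.mk' V)) (⊤ : Subgroup (G ⧸ V)) :=
  (h.transport U V W' hVU hW'W hsup hW'U hsupU hinf).natural

end Cfsg.Agent.PushUp
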