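import Cfsg.Agent.PushUp.StructTwo
import Cfsg.Agent.PushUp.Index
import Cfsg.Agent.PushUp.Natural

/-!
Noncentral chief factors against natural layers.
-/

set_option autoImplicit false
set_option linter.style.haveILetI false
set_option linter.unusedSectionVars false

open Subgroup
open scoped commutatorElement

namespace Cfsg.Agent.PushUp

open LAE62

universe u

variable {G : Type u} [Group G]

/-- A chief factor covered by central elements is central. -/
theorem central_of_covered {U W C : Subgroup G} [hW : W.Normal] (hU : (U ⊓ C) ⊔ W = U)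
    (hC : C ≤ centralizer ((⊤ : Subgroup G) : Set G)) : ⁅U, (⊤ : Subgroup G)⁆ ≤ W := by
  rw [Subgroup.commutator_le]
  intro a ha g _
  obtain ⟨c, hc, d, hd, rfl⟩ := Subgroup.mem_sup_of_normal_right.1 (hU.ge ha : a ∈ (U ⊓ C) ⊔ W)
  have h1 : ⁅c, g⁆ = 1 := comm_one (mem_centralizer_iff.1 (hC hc.2) g (mem_top g)).symm
  have e : ⁅c * d, g⁆ = c * ⁅d, g⁆ * c⁻¹ * ⁅c, g⁆ := by simp only [commutatorElement_def]; group
  rw [e, h1, mul_one]
  refine hW.conj_mem _ ?_ c
  rw [commutatorElement_def, mul_assoc, mul_assoc]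
  exact mul_mem hd (by simpa [mul_assoc] using hW.conj_mem _ (inv_mem hd) g)

/-- A chief factor meets a natural layer below it, or is isomorphic to it. -/
theorem natural_or_below {F : Type} [Field F] {Q U W A B' : Subgroup G} (hW : W.Normal)
    (h : NatSection F Q A B') (hA : A.Normal) (hB : B'.Normal) (hchief : Cfsg.IsChiefFactor U W)
    (hAU : (U ⊓ A) ⊔ W = U) :
    (U ⊓ B') ⊔ W = U ∨
      Cfsg.IsNaturalSL2Module F (U.map (QuotientGroup.mk' W)) (⊤ : Subgroup (G ⧸ W)) := by
  haveI := hchief.2.1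
  haveI := hA
  haveI := hB
  rcases chief_layer hchief hA hB h.1 hAU (fun X hX h1 h2 => haveI := hX; h.irreducible X h1 h2) with
    h1 | ⟨h1, h2⟩
  · exact Or.inl h1
  · exact Or.inr (natural_transport h U W (U ⊓ A) hchief.1.le inf_le_right h1 inf_le_left hAU h2)

/-- A natural layer is not central. -/
theorem NatSection.noncentral {F : Type} [Field F] {Q A B' : Subgroup G} (h : NatSection F Q A B')
    (hA : A.Normal) (hQ : Q ≠ ⊤) : ¬ ⁅A, (⊤ : Subgroup G)⁆ ≤ B' := by
  haveI := hA
  intro hle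
  refine hQ (eq_top_iff.2 fun g _ => (h.mem_kernel_iff g).1 fun w hw => ?_)
  rw [← commutatorElement_inv]
  exact inv_mem (hle (Subgroup.commutator_mem_commutator hw (mem_top g)))

/-- A natural layer is a chief factor. -/
theorem NatSection.isChief {F : Type} [Field F] {Q A B' : Subgroup G} (h : NatSection F Q A B')
    (hA : A.Normal) (hB : B'.Normal) (hQ : Q ≠ ⊤) : Cfsg.IsChiefFactor A B' := by
  haveI := hA
  refine ⟨h.1.lt_of_ne fun e => h.noncentral hA hQ ?_, hA, hB,
    fun N hN h1 h2 => haveI := hN; h.irreducible N h1 h2⟩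
  rw [e]
  exact Subgroup.commutator_le_left A ⊤

theorem Base.ne_top {p : ℕ} {S Q M : Subgroup G} (B : Base p S Q M) : Q ≠ ⊤ := fun h =>
  B.proper (h ▸ le_top)

theorem iterCommutator_one_central {C : Subgroup G}
    (hC : C ≤ centralizer ((⊤ : Subgroup G) : Set G)) : Cfsg.iterCommutator C ⊤ 1 = ⊥ := by
  show ⁅C, (⊤ : Subgroup G)⁆ = ⊥
  rw [eq_bot_iff, Subgroup.commutator_le]
  intro c hc g _
  rw [mem_bot]
  exact comm_one (mem_centralizer_iff.1 (hC hc) g (mem_top g)).symm

end Cfsg.Agent.PushUp
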