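import Cfsg.Agent.PushUp.Main
import Cfsg.Agent.PushUp.Natural
import Cfsg.Agent.PushUp.Near
import Cfsg.Agent.EvenLocal.Qd
import Cfsg.Agent.EvenLocal.RankOnePSL
import Cfsg.Agent.Linear.GLTwo
import Mathlib.GroupTheory.Transfer

/-!
Recognition of `Qd(q) × E` in a pushing-up configuration with one natural module.
-/

set_option autoImplicit false
set_option linter.style.haveILetI false
set_option linter.unusedSectionVars false

open Subgroup
open scoped commutatorElement MatrixGroups Matrix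

namespace Cfsg.Agent.PushUp

open LAE62
open EvenLocal.Qd (mat2 coe_mat2 mkEl)

universe u v

variable {F : Type} [Field F] [Fintype F] {X : Type u} [Group X] [Finite X] {p : ℕ} [hp : Fact p.Prime]

/-- Coordinates for a configuration of type one. -/
structure Coord (p : ℕ) (S Q M : Subgroup X) (ρ : X →* SL(2, F)) (ψ : X → Fin 2 → F) (t : X) : Prop where
  one : TypeOne p S Q M
  hQ : Q = Cfsg.pCore p X
  odd : p ≠ 2
  two : (2 : F) ≠ 0
  big : ∃ c : F, c ≠ 0 ∧ ∀ m : ℕ, (c ^ p ^ m) ^ 2 ≠ 1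
  rsurj : Function.Surjective ρ
  rker : ρ.ker = Q
  add : ∀ a ∈ omZ p Q, ∀ b ∈ omZ p Q, ψ (a * b) = ψ a + ψ b
  zero_iff : ∀ a ∈ omZ p Q, ψ a = 0 ↔ a ∈ centralizer ((⊤ : Subgroup X) : Set X)
  conj : ∀ g : X, ∀ a ∈ omZ p Q, ψ (g * a * g⁻¹) = (ρ g : Matrix (Fin 2) (Fin 2) F) *ᵥ ψ a
  psurj : ∀ x : Fin 2 → F, ∃ a ∈ omZ p Q, ψ a = x
  upper : ∀ s ∈ S, ρ s ∈ Linear.upperSL (F := F)
  t_sq : t * t = 1
  rho_t : ρ t = -1

namespace Coord

variable {S Q M : Subgroup X} {ρ : X →* SL(2, F)} {ψ : X → Fin 2 → F} {t : X}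
  (D : Coord p S Q M ρ ψ t)
include D


theorem tinv : t⁻¹ = t := inv_eq_of_mul_eq_one_right D.t_sq

theorem mem_Q_iff {g : X} : g ∈ Q ↔ ρ g = 1 := by
  rw [← D.rker, MonoidHom.mem_ker]

theorem comm_V {a b : X} (ha : a ∈ omZ p Q) (hb : b ∈ Q) : b * a = a * b := ha.2.2 b hb

theorem psi_one : ψ 1 = 0 :=
  (D.zero_iff 1 (one_mem _)).2 (one_mem _)

theorem psi_inv {a : X} (ha : a ∈ omZ p Q) : ψ a⁻¹ = -ψ a := by
  have h := D.add a⁻¹ (inv_mem ha) a ha
  rw [inv_mul_cancel, D.psi_one] at h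
  exact eq_neg_of_add_eq_zero_left h.symm

theorem psi_t {a : X} (ha : a ∈ omZ p Q) : ψ (t * a * t⁻¹) = -ψ a := by
  rw [D.conj t a ha, D.rho_t, Matrix.SpecialLinearGroup.coe_neg, Matrix.SpecialLinearGroup.coe_one,
    Matrix.neg_mulVec, Matrix.one_mulVec]

/-- A point of the module fixed by the involution is central. -/
theorem central_of_fixed {a : X} (ha : a ∈ omZ p Q) (ht : t * a = a * t) :
    a ∈ centralizer ((⊤ : Subgroup X) : Set X) := by
  refine (D.zero_iff a ha).1 ?_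
  have h := D.psi_t ha
  rw [ht, mul_inv_cancel_right] at h
  funext i
  have h1 := congrFun h i
  rw [Pi.neg_apply, eq_neg_iff_add_eq_zero, ← two_mul] at h1
  exact (mul_eq_zero.1 h1).resolve_left D.two

theorem mem_centre_iff {a : X} (ha : a ∈ omZ p Q) : ψ a = 0 ↔ ∀ g : X, g * a = a * g := by
  rw [D.zero_iff a ha, mem_centralizer_iff]
  exact ⟨fun h g => h g (mem_top g), fun h g _ => h g⟩

/-- The part of the module inverted by the involution. -/
def inv0 (_D : Coord p S Q M ρ ψ t) : Subgroup X where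
  carrier := {a | a ∈ omZ p Q ∧ t * a * t⁻¹ = a⁻¹}
  one_mem' := ⟨one_mem _, by simp⟩
  mul_mem' := fun {a b} ⟨ha, ha'⟩ ⟨hb, hb'⟩ => ⟨mul_mem ha hb, by
    have e : t * (a * b) * t⁻¹ = (t * a * t⁻¹) * (t * b * t⁻¹) := by group
    rw [e, ha', hb', mul_inv_rev]
    exact (hb.2.2 a⁻¹ (inv_mem (omZ_le p Q ha)) |> Commute.inv_right).eq⟩
  inv_mem' := fun {a} ⟨ha, ha'⟩ => ⟨inv_mem ha, by
    rw [show t * a⁻¹ * t⁻¹ = (t * a * t⁻¹)⁻¹ by group, ha']⟩


theorem inv0_le : (inv0 D) ≤ omZ p Q := fun _ h => h.1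

theorem inv0_le_Q : (inv0 D) ≤ Q := fun _ h => omZ_le p Q h.1

theorem inv0_eq_one {a : X} (ha : a ∈ (inv0 D)) (ht : t * a = a * t) : a = 1 := by
  have h := ha.2
  rw [ht, mul_inv_cancel_right, eq_inv_iff_mul_eq_one, ← sq] at h
  have h2 := pow_gcd_eq_one.2 ⟨h, ha.1.2.1⟩
  rwa [Nat.Coprime.gcd_eq_one ((Nat.coprime_primes Nat.prime_two hp.out).2 D.odd.symm), pow_one] at h2

theorem inv0_inj {a : X} (ha : a ∈ (inv0 D)) (h0 : ψ a = 0) : a = 1 :=
  D.inv0_eq_one ha ((D.mem_centre_iff ha.1).1 h0 t)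

theorem inv0_ext {a b : X} (ha : a ∈ (inv0 D)) (hb : b ∈ (inv0 D)) (h : ψ a = ψ b) : a = b := by
  refine eq_of_mul_inv_eq_one (D.inv0_inj (mul_mem ha (inv_mem hb)) ?_)
  rw [D.add a ha.1 b⁻¹ (inv_mem hb.1), D.psi_inv hb.1, h, add_neg_cancel]

/-- Square roots in elementary abelian `p`-groups. -/
theorem half {r : X} (hr : r ^ p = 1) : r ^ ((p + 1) / 2) * r ^ ((p + 1) / 2) = r := by
  obtain ⟨k, hk⟩ := hp.out.odd_of_ne_two D.odd
  rw [← pow_add, show (p + 1) / 2 + (p + 1) / 2 = p + 1 by omega, pow_succ, hr, one_mul]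

theorem act_t {q : X} (hq : q ∈ Q) : ⁅t, q⁆ ∈ omZ p Q := by
  refine D.one.act t ?_ q hq
  have h : orderOf t ∣ 2 := orderOf_dvd_of_pow_eq_one (by rw [sq, D.t_sq])
  exact Nat.Coprime.coprime_dvd_left h ((Nat.coprime_primes Nat.prime_two hp.out).2 D.odd.symm)

/-- `Q` splits as the inverted and the fixed part. -/
theorem split_Q {q : X} (hq : q ∈ Q) : ∃ a ∈ (inv0 D), ∃ e ∈ (Q ⊓ centralizer ({t} : Set X)), q = a * e := by
  set r := ⁅t, q⁆ with hr
  have hrV := D.act_t hq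
  rw [← hr] at hrV
  have hrinv : t * r * t⁻¹ = r⁻¹ := by
    rw [hr, commutatorElement_def]
    simp only [mul_inv_rev, inv_inv, D.tinv]
    calc t * (t * q * t * q⁻¹) * t = (t * t) * q * t * q⁻¹ * t := by group
      _ = q * t * q⁻¹ * t := by rw [D.t_sq, one_mul]
      _ = _ := by group
  have hr0 : r ∈ (inv0 D) := ⟨hrV, hrinv⟩
  set w := r ^ ((p + 1) / 2) with hw
  have hw0 : w ∈ (inv0 D) := pow_mem hr0 _
  refine ⟨w⁻¹, inv_mem hw0, w * q, mem_inf.2 ⟨mul_mem (D.inv0_le_Q hw0) hq, ?_⟩, (inv_mul_cancel_left w q).symm⟩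
  rw [mem_centralizer_singleton_iff]
  have h1 : t * (w * q) * t⁻¹ = w * q := by
    calc t * (w * q) * t⁻¹ = (t * w * t⁻¹) * (t * q * t⁻¹) := by group
      _ = w⁻¹ * (r * q) := by
          rw [hw0.2, hr, commutatorElement_def, inv_mul_cancel_right]
      _ = w⁻¹ * ((w * w) * q) := by rw [hw, D.half hrV.2.1]
      _ = _ := by group
  have := eq_mul_inv_iff_mul_eq.1 h1.symm
  rw [this]

theorem normal_Q : Q.Normal := D.one.base.normal

/-- Every element is a product of an inverted module element and one commuting with `t`. -/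
theorem split_top (g : X) : ∃ a ∈ (inv0 D), ∃ x ∈ (centralizer ({t} : Set X)), g = a * x := by
  set q := g * t * g⁻¹ * t⁻¹ with hq
  have hqQ : q ∈ Q := by
    rw [D.mem_Q_iff, hq, map_mul, map_mul, map_mul, map_inv, map_inv, D.rho_t]
    simp
  have hqt : g * t * g⁻¹ = q * t := by rw [hq]; group
  have hinv : t * q * t⁻¹ = q⁻¹ := by
    have h1 : (q * t) * (q * t) = 1 := by
      rw [← hqt]
      calc g * t * g⁻¹ * (g * t * g⁻¹) = g * (t * t) * g⁻¹ := by group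
        _ = 1 := by rw [D.t_sq]; group
    rw [D.tinv]
    exact eq_inv_of_mul_eq_one_right (by simpa [mul_assoc] using h1)
  obtain ⟨a, ha, e, he, hqe⟩ := D.split_Q hqQ
  have het : t * e = e * t := (mem_centralizer_singleton_iff.1 he.2).symm
  have hae : e * a = a * e := ha.1.2.2 e he.1
  have he1 : e = 1 := by
    rw [hqe] at hinv
    have e1 : t * (a * e) * t⁻¹ = a⁻¹ * e := by
      calc t * (a * e) * t⁻¹ = (t * a * t⁻¹) * (t * e * t⁻¹) := by group
        _ = a⁻¹ * e := by rw [ha.2, het, mul_inv_cancel_right]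
    rw [e1, ← hae, mul_inv_rev] at hinv
    have h2 : e * e = 1 := by
      have := mul_left_cancel hinv
      rw [eq_inv_iff_mul_eq_one] at this
      exact this
    rw [← sq] at h2
    have h3 := pow_gcd_eq_one.2 ⟨h2, D.one.expOdd D.odd e (D.one.base.le he.1)⟩
    rwa [Nat.Coprime.gcd_eq_one ((Nat.coprime_primes Nat.prime_two hp.out).2 D.odd.symm), pow_one] at h3
  rw [he1, mul_one] at hqe
  set w := a ^ ((p + 1) / 2) with hw
  have hw0 : w ∈ (inv0 D) := pow_mem ha _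
  refine ⟨w, hw0, w⁻¹ * g, ?_, (mul_inv_cancel_left w g).symm⟩
  rw [mem_centralizer_singleton_iff]
  have h1 : w⁻¹ * g * t * g⁻¹ = t * w⁻¹ := by
    have hwt : t * w⁻¹ * t⁻¹ = w := by
      have := hw0.2
      calc t * w⁻¹ * t⁻¹ = (t * w * t⁻¹)⁻¹ := by group
        _ = w := by rw [this, inv_inv]
    calc w⁻¹ * g * t * g⁻¹ = w⁻¹ * (g * t * g⁻¹) := by group
      _ = w⁻¹ * ((w * w) * t) := by rw [hqt, hqe, hw, D.half ha.1.2.1]
      _ = (t * w⁻¹ * t⁻¹) * t := by rw [hwt]; group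
      _ = _ := by group
  have h2 := mul_inv_eq_iff_eq_mul.1 h1
  rw [h2, mul_assoc]

theorem inv0_normal : (inv0 D).Normal := by
  refine ⟨fun a ha g => ?_⟩
  obtain ⟨w, hw, x, hx, rfl⟩ := D.split_top g
  have hxt : t * x = x * t := (mem_centralizer_singleton_iff.1 hx).symm
  have hxa : x * a * x⁻¹ ∈ omZ p Q := D.one.nat.normal.conj_mem a ha.1 x
  have e : w * x * a * (w * x)⁻¹ = x * a * x⁻¹ := by
    have h1 : w * (x * a * x⁻¹) = (x * a * x⁻¹) * w := D.comm_V hxa (D.inv0_le_Q hw)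
    calc w * x * a * (w * x)⁻¹ = w * (x * a * x⁻¹) * w⁻¹ := by group
      _ = _ := by rw [h1, mul_inv_cancel_right]
  rw [e]
  refine ⟨hxa, ?_⟩
  calc t * (x * a * x⁻¹) * t⁻¹ = (t * x) * a * (x⁻¹ * t⁻¹) := by group
    _ = (x * t) * a * (x⁻¹ * t⁻¹) := by rw [hxt]
    _ = (x * t) * a * (t * x)⁻¹ := by group
    _ = (x * t) * a * (x * t)⁻¹ := by rw [hxt]
    _ = x * (t * a * t⁻¹) * x⁻¹ := by group
    _ = _ := by rw [ha.2]; group

theorem inv0_psurj (x : Fin 2 → F) : ∃ a ∈ (inv0 D), ψ a = x := by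
  obtain ⟨a, ha, rfl⟩ := D.psurj x
  obtain ⟨b, hb, e, he, rfl⟩ := D.split_Q (omZ_le p Q ha)
  have heV : e ∈ omZ p Q := by
    have := mul_mem (inv_mem hb.1) ha
    rwa [inv_mul_cancel_left] at this
  refine ⟨b, hb, ?_⟩
  rw [D.add b hb.1 e heV, (D.zero_iff e heV).2
    (D.central_of_fixed heV (mem_centralizer_singleton_iff.1 he.2).symm), add_zero]

/-- Elements of order prime to `p` commuting with `t`. -/
theorem coprime_fix {g e : X} (hg : g ∈ (centralizer ({t} : Set X))) (hgp : (orderOf g).Coprime p) (he : e ∈ (Q ⊓ centralizer ({t} : Set X))) :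
    g * e = e * g := by
  have hd := D.one.act g hgp e he.1
  have hdt : t * ⁅g, e⁆ = ⁅g, e⁆ * t := by
    have h : ⁅g, e⁆ ∈ (centralizer ({t} : Set X)) := by
      rw [commutatorElement_def]
      exact mul_mem (mul_mem (mul_mem hg he.2) (inv_mem hg)) (inv_mem he.2)
    exact (mem_centralizer_singleton_iff.1 h).symm
  have hc := (mem_centralizer_iff.1 (D.central_of_fixed hd hdt)) g (mem_top g)
  exact commutatorElement_eq_one_iff_mul_comm.1
    (eq_one_of_commutes_coprime (p := p) (k := 1) hgp (by rw [pow_one]; exact hd.2.1) hc)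

/-- The subgroup generated by the elements of order prime to `p` commuting with `t`. -/
def res0 (_D : Coord p S Q M ρ ψ t) : Subgroup X :=
  Subgroup.closure {g | g ∈ centralizer ({t} : Set X) ∧ (orderOf g).Coprime p}


theorem res0_le : (res0 D) ≤ (centralizer ({t} : Set X)) := (Subgroup.closure_le _).2 fun _ h => h.1

theorem res0_fix {l e : X} (hl : l ∈ (res0 D)) (he : e ∈ (Q ⊓ centralizer ({t} : Set X))) : l * e = e * l := by
  have h : (res0 D) ≤ centralizer ({e} : Set X) := (Subgroup.closure_le _).2 fun g hg =>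
    mem_centralizer_singleton_iff.2 (D.coprime_fix hg.1 hg.2 he)
  exact mem_centralizer_singleton_iff.1 (h hl)

theorem rho_X0 (A : SL(2, F)) : ∃ x ∈ (centralizer ({t} : Set X)), ρ x = A := by
  obtain ⟨g, rfl⟩ := D.rsurj A
  obtain ⟨a, ha, x, hx, rfl⟩ := D.split_top g
  exact ⟨x, hx, by rw [map_mul, D.mem_Q_iff.1 (D.inv0_le_Q ha), one_mul]⟩

theorem res0_map : (res0 D).map ρ = ⊤ := by
  set N := (res0 D).map ρ with hN
  have hnorm : N.Normal := by
    refine ⟨fun A hA B => ?_⟩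
    obtain ⟨l, hl, rfl⟩ := hA
    obtain ⟨x, hx, rfl⟩ := D.rho_X0 B
    refine ⟨x * l * x⁻¹, ?_, by rw [map_mul, map_mul, map_inv]⟩
    have hle : (res0 D) ≤ (res0 D).comap (MulAut.conj x).toMonoidHom := (Subgroup.closure_le _).2 fun g hg => by
      refine Subgroup.subset_closure ⟨?_, ?_⟩
      · simpa using mul_mem (mul_mem hx hg.1) (inv_mem hx)
      · rw [show orderOf ((MulAut.conj x).toMonoidHom g) = orderOf g from
          orderOf_injective (MulAut.conj x).toMonoidHom (MulAut.conj x).injective g]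
        exact hg.2
    simpa using hle hl
  obtain ⟨c, hc0, hc⟩ := D.big
  obtain ⟨x, hx, hxc⟩ := D.rho_X0 (mat2 c 0 0 c⁻¹ (by simp [hc0]))
  obtain ⟨a, m, hpm, ham⟩ :=
    Nat.exists_eq_pow_mul_and_not_dvd (orderOf_pos x).ne' p hp.out.ne_one
  have hcop : (orderOf (x ^ p ^ a)).Coprime p := by
    rw [orderOf_pow_of_dvd (pow_ne_zero _ hp.out.ne_zero) ⟨m, ham⟩, ham,
      Nat.mul_div_cancel_left _ (pow_pos hp.out.pos _)]
    exact ((hp.out.coprime_iff_not_dvd).2 hpm).symm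
  have hpw : ∀ k : ℕ, ((ρ (x ^ k) : SL(2, F)) : Matrix (Fin 2) (Fin 2) F) = !![c ^ k, 0; 0, c⁻¹ ^ k] := by
    intro k
    induction k with
    | zero => simp [Matrix.one_fin_two]
    | succ k ih =>
      rw [pow_succ, map_mul, Matrix.SpecialLinearGroup.coe_mul, ih, hxc, coe_mat2, Matrix.mul_fin_two,
        pow_succ, pow_succ]
      simp
  set d := ρ (x ^ p ^ a) with hd
  have hdN : d ∈ N := mem_map_of_mem ρ (Subgroup.subset_closure ⟨pow_mem hx _, hcop⟩)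
  have hd' : (d : Matrix (Fin 2) (Fin 2) F) = !![c ^ p ^ a, 0; 0, c⁻¹ ^ p ^ a] := hpw _
  set k := c ^ p ^ a with hk
  have hk0 : k ≠ 0 := pow_ne_zero _ hc0
  have hk2 : k ^ 2 - 1 ≠ 0 := sub_ne_zero.2 (hc a)
  rw [inv_pow, ← hk] at hd'
  have hupper : Linear.upperSL (F := F) ≤ N := by
    intro g hg
    obtain ⟨g1, g2, g3⟩ := Linear.mem_upperSL.1 hg
    set h := mat2 1 (g 0 1 / (k ^ 2 - 1)) 0 1 (by ring) with hh
    have e : d * h = g * h * d := by
      apply Subtype.ext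
      simp only [Matrix.SpecialLinearGroup.coe_mul, hd', hh, coe_mat2]
      rw [Matrix.eta_fin_two (g : Matrix (Fin 2) (Fin 2) F), g1, g2, g3, Matrix.mul_fin_two,
        Matrix.mul_fin_two, Matrix.mul_fin_two]
      ext i j
      fin_cases i <;> fin_cases j <;> simp
      field_simp
      ring
    have e2 : g = d * (h * d⁻¹ * h⁻¹) := by
      rw [← mul_assoc, ← mul_assoc, e]; group
    rw [e2]
    exact mul_mem hdN (hnorm.conj_mem _ (inv_mem hdN) h)
  refine top_le_iff.1 ((Linear.upperSL_sup_conj_eq_top (F := F) (g := mat2 0 (-1) 1 0 (by ring))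
    (by simp)).ge.trans (sup_le hupper ?_))
  rintro _ ⟨g, hg, rfl⟩
  exact hnorm.conj_mem g (hupper hg) _

theorem res0_surj (A : SL(2, F)) : ∃ l ∈ (res0 D), ρ l = A := by
  have h : A ∈ (res0 D).map ρ := D.res0_map ▸ mem_top A
  obtain ⟨l, hl, e⟩ := h
  exact ⟨l, hl, e⟩

/-- An element of `S` commuting with `t` is a fixed point of `Q` times an element of `L`. -/
theorem split_S0 {x : X} (hx : x ∈ S) (hxt : x ∈ (centralizer ({t} : Set X))) :
    ∃ e ∈ (Q ⊓ centralizer ({t} : Set X)), ∃ l, l ∈ S ∧ l ∈ (res0 D) ∧ x = e * l := by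
  obtain ⟨l, hl, hlx⟩ := D.res0_surj (ρ x)
  have he : x * l⁻¹ ∈ Q := by rw [D.mem_Q_iff, map_mul, map_inv, hlx, mul_inv_cancel]
  refine ⟨x * l⁻¹, mem_inf.2 ⟨he, mul_mem hxt (inv_mem (D.res0_le hl))⟩, l, ?_, hl, (inv_mul_cancel_right x l).symm⟩
  have := mul_mem (inv_mem (D.one.base.le he)) hx
  simpa using this

theorem split_S {s : X} (hs : s ∈ S) : ∃ a ∈ (inv0 D), ∃ x, x ∈ S ∧ x ∈ (centralizer ({t} : Set X)) ∧ s = a * x := by
  obtain ⟨a, ha, x, hx, rfl⟩ := D.split_top s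
  refine ⟨a, ha, x, ?_, hx, rfl⟩
  have := mul_mem (inv_mem (D.one.base.le (D.inv0_le_Q ha))) hs
  simpa using this

theorem classTwo_central {a b : X} (ha : a ∈ S) (hb : b ∈ S) :
    ∀ d ∈ S, ⁅a, b⁆ * d = d * ⁅a, b⁆ := fun d hd =>
  commutatorElement_eq_one_iff_mul_comm.1 (D.one.classTwo a ha b hb d hd)

theorem comm_split {a b a' b' : X} (ha : a ∈ S) (hb : b ∈ S) (ha' : a' ∈ S) (hb' : b' ∈ S) :
    ⁅a * b, a' * b'⁆ = ⁅a, a'⁆ * ⁅a, b'⁆ * (⁅b, a'⁆ * ⁅b, b'⁆) := by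
  have hl : ∀ u ∈ S, ∀ w ∈ S, ∀ r ∈ S, ⁅u * w, r⁆ = ⁅u, r⁆ * ⁅w, r⁆ := by
    intro u hu w hw r hr
    rw [comm_left_mul, conj_fix (D.classTwo_central hw hr u hu).symm]
    exact D.classTwo_central hw hr _ (by
      rw [commutatorElement_def]
      exact mul_mem (mul_mem (mul_mem hu hr) (inv_mem hu)) (inv_mem hr))
  have hr' : ∀ u ∈ S, ∀ w ∈ S, ∀ r ∈ S, ⁅u, w * r⁆ = ⁅u, w⁆ * ⁅u, r⁆ := by
    intro u hu w hw r hr
    rw [comm_right_mul, conj_fix (D.classTwo_central hu hr w hw).symm]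
  rw [hl a ha b hb _ (mul_mem ha' hb'), hr' a ha a' ha' b' hb', hr' b hb a' ha' b' hb']

/-- The derived subgroup of the fixed part of `Q`. -/
def der0 (_D : Coord p S Q M ρ ψ t) : Subgroup X :=
  ⁅Q ⊓ centralizer ({t} : Set X), Q ⊓ centralizer ({t} : Set X)⁆


theorem der0_le : (der0 D) ≤ Q ⊓ centralizer ((⊤ : Subgroup X) : Set X) ⊓ omZ p Q := by
  refine Subgroup.commutator_le.2 fun a ha b hb => ?_
  have hS := D.one.base.le
  have hm : ⁅a, b⁆ ∈ (Q ⊓ centralizer ({t} : Set X)) := by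
    rw [commutatorElement_def]
    exact mul_mem (mul_mem (mul_mem ha hb) (inv_mem ha)) (inv_mem hb)
  have hV : ⁅a, b⁆ ∈ omZ p Q := ⟨hm.1, D.one.expOdd D.odd _ (hS hm.1), fun q hq =>
    (D.classTwo_central (hS ha.1) (hS hb.1) q (hS hq)).symm⟩
  exact ⟨⟨hm.1, D.central_of_fixed hV (mem_centralizer_singleton_iff.1 hm.2).symm⟩, hV⟩

theorem der0_central {d : X} (hd : d ∈ (der0 D)) (g : X) : g * d = d * g :=
  mem_centralizer_iff.1 (D.der0_le hd).1.2 g (mem_top g)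

theorem der0_normal : (der0 D).Normal :=
  ⟨fun d hd g => by rwa [D.der0_central hd g, mul_inv_cancel_right]⟩

theorem der0_t {d : X} (hd : d ∈ (der0 D)) : t * d = d * t := D.der0_central hd t

theorem der0_psi {d : X} (hd : d ∈ (der0 D)) : ψ d = 0 :=
  (D.zero_iff d (D.der0_le hd).2).2 (D.der0_le hd).1.2

theorem l_comm {l l' : X} (hl : l ∈ S) (hlL : l ∈ (res0 D)) (hl' : l' ∈ S) (hl'L : l' ∈ (res0 D)) :
    ⁅l, l'⁆ ∈ (der0 D) := by
  obtain ⟨V₂, h2S, -, h2c, -, hsup, -⟩ := D.one.split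
  have hdec : ∀ z, z ∈ S → z ∈ (res0 D) → ∃ a ∈ (inv0 D), ∃ e ∈ (Q ⊓ centralizer ({t} : Set X)), ∃ w ∈ V₂, z = a * (e * w) := by
    intro z hz _
    haveI := D.normal_Q
    obtain ⟨q, hq, w, hw, rfl⟩ := Subgroup.mem_sup_of_normal_left.1 (hsup.symm ▸ hz : z ∈ Q ⊔ V₂)
    obtain ⟨a, ha, e, he, rfl⟩ := D.split_Q hq
    exact ⟨a, ha, e, he, w, hw, mul_assoc a e w⟩
  obtain ⟨a, ha, e, he, w, hw, hz⟩ := hdec l hl hlL
  obtain ⟨a', ha', e', he', w', hw', hz'⟩ := hdec l' hl' hl'L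
  have hS := D.one.base.le
  have haS := hS (D.inv0_le_Q ha)
  have ha'S := hS (D.inv0_le_Q ha')
  have heS := hS he.1
  have he'S := hS he'.1
  have hwS := h2S hw
  have hw'S := h2S hw'
  have haa : ∀ b ∈ (inv0 D), ∀ q ∈ Q, ⁅b, q⁆ = 1 := fun b hb q hq => comm_one (D.comm_V hb.1 hq).symm
  have haa' : ∀ b ∈ (inv0 D), ∀ q ∈ Q, ⁅q, b⁆ = 1 := fun b hb q hq => comm_one (D.comm_V hb.1 hq)
  -- fixed points of `Q` commute with the chosen part of `V₂`
  have hew : ∀ q ∈ (Q ⊓ centralizer ({t} : Set X)), ∀ b ∈ (inv0 D), ∀ f ∈ (Q ⊓ centralizer ({t} : Set X)), ∀ y, y ∈ S → ∀ z, z ∈ (res0 D) → z = b * (f * y) →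
      ⁅q, y⁆ = ⁅f, q⁆ := by
    intro q hq b hb f hf y hy z hzL hzy
    have h1 : ⁅q, z⁆ = 1 := comm_one (D.res0_fix hzL hq).symm
    have h2 := D.comm_split (hS hq.1) (one_mem S) (hS (D.inv0_le_Q hb)) (mul_mem (hS hf.1) hy)
    have h3 := D.comm_split (hS hq.1) (one_mem S) (hS hf.1) hy
    simp only [mul_one, commutatorElement_one_left] at h2 h3
    rw [← hzy, h1, haa' b hb q hq.1, one_mul, h3] at h2
    rw [← inv_eq_of_mul_eq_one_right h2.symm, commutatorElement_inv]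
  have hew1 := hew e he a' ha' e' he' w' hw'S l' hl'L hz'
  have hew2 := hew e' he' a ha e he w hwS l hlL hz
  have hmain : ⁅l, l'⁆ = ⁅a, w'⁆ * ⁅w, a'⁆ * (⁅e, e'⁆ * (⁅e', e⁆ * ⁅e', e⁆)) := by
    rw [hz, hz', D.comm_split haS (mul_mem heS hwS) ha'S (mul_mem he'S hw'S)]
    have h1 : ⁅a, e' * w'⁆ = ⁅a, w'⁆ := by
      rw [comm_right_mul, haa a ha e' he'.1, one_mul, conj_fix (D.classTwo_central haS hw'S e' he'S).symm]
    have h2 : ⁅e * w, a'⁆ = ⁅w, a'⁆ := by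
      rw [comm_left_mul, haa' a' ha' e he.1, mul_one, conj_fix (D.classTwo_central hwS ha'S e heS).symm]
    have h3 : ⁅w, e'⁆ = ⁅e', e⁆ := by
      rw [← commutatorElement_inv, hew2, commutatorElement_inv]
    rw [h1, h2, haa a ha a' (D.inv0_le_Q ha'), one_mul, D.comm_split heS hwS he'S hw'S, hew1, h3,
      comm_one (h2c w hw w' hw'), mul_one, ← mul_assoc]
    group
  have hd1 : ⁅e, e'⁆ ∈ (der0 D) := Subgroup.commutator_mem_commutator he he'
  have hd2 : ⁅e', e⁆ ∈ (der0 D) := Subgroup.commutator_mem_commutator he' he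
  have hd3 : ⁅e, e'⁆ * (⁅e', e⁆ * ⁅e', e⁆) ∈ (der0 D) := mul_mem hd1 (mul_mem hd2 hd2)
  set y := ⁅a, w'⁆ * ⁅w, a'⁆ with hy
  have hy0 : y ∈ (inv0 D) := by
    haveI := D.inv0_normal
    refine mul_mem ?_ ?_
    · rw [commutatorElement_def, mul_assoc, mul_assoc]
      refine mul_mem ha ?_
      rw [← mul_assoc]
      exact D.inv0_normal.conj_mem _ (inv_mem ha) w'
    · rw [commutatorElement_def]
      exact mul_mem (D.inv0_normal.conj_mem _ ha' w) (inv_mem ha')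
  have hlt : t * ⁅l, l'⁆ = ⁅l, l'⁆ * t := by
    have h : ⁅l, l'⁆ ∈ (centralizer ({t} : Set X)) := by
      rw [commutatorElement_def]
      exact mul_mem (mul_mem (mul_mem (D.res0_le hlL) (D.res0_le hl'L)) (inv_mem (D.res0_le hlL)))
        (inv_mem (D.res0_le hl'L))
    exact (mem_centralizer_singleton_iff.1 h).symm
  have hyt : t * y = y * t := by
    have h1 : y = ⁅l, l'⁆ * (⁅e, e'⁆ * (⁅e', e⁆ * ⁅e', e⁆))⁻¹ := by rw [hmain, mul_inv_cancel_right]
    rw [h1]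
    exact (Commute.mul_right hlt (Commute.inv_right (D.der0_t hd3))).eq
  rw [hmain, D.inv0_eq_one hy0 hyt, one_mul]
  exact hd3

theorem S0_comm {x x' : X} (hx : x ∈ S) (hxt : x ∈ (centralizer ({t} : Set X))) (hx' : x' ∈ S) (hx't : x' ∈ (centralizer ({t} : Set X))) :
    ⁅x, x'⁆ ∈ (der0 D) := by
  obtain ⟨e, he, l, hlS, hlL, rfl⟩ := D.split_S0 hx hxt
  obtain ⟨e', he', l', hl'S, hl'L, rfl⟩ := D.split_S0 hx' hx't
  rw [D.comm_split (D.one.base.le he.1) hlS (D.one.base.le he'.1) hl'S,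
    comm_one (D.res0_fix hl'L he).symm, comm_one (D.res0_fix hlL he'), mul_one, one_mul]
  exact mul_mem (Subgroup.commutator_mem_commutator he he') (D.l_comm hlS hlL hl'S hl'L)

theorem psi_upper {x a : X} (hx : x ∈ S) (ha : a ∈ omZ p Q) :
    ψ ⁅x, a⁆ = ![(ρ x) 0 1 * ψ a 1, 0] := by
  have hxa : x * a * x⁻¹ ∈ omZ p Q := D.one.nat.normal.conj_mem a ha x
  rw [commutatorElement_def, D.add _ hxa _ (inv_mem ha), D.psi_inv ha, D.conj x a ha]
  obtain ⟨h1, h2, h3⟩ := Linear.mem_upperSL.1 (D.upper x hx)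
  funext i
  fin_cases i <;> simp [Matrix.mulVec, dotProduct, Fin.sum_univ_two, h1, h2, h3]

theorem comm_formula {a a' x x' : X} (ha : a ∈ (inv0 D)) (ha' : a' ∈ (inv0 D)) (hx : x ∈ S) (hxt : x ∈ (centralizer ({t} : Set X)))
    (hx' : x' ∈ S) (hx't : x' ∈ (centralizer ({t} : Set X))) :
    ∃ z ∈ (inv0 D), ∃ d ∈ (der0 D), ⁅a * x, a' * x'⁆ = z * d ∧
      ψ z = ![(ρ x) 0 1 * ψ a' 1 - (ρ x') 0 1 * ψ a 1, 0] := by
  have hS := D.one.base.le
  have haS := hS (D.inv0_le_Q ha)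
  have ha'S := hS (D.inv0_le_Q ha')
  have hn := D.inv0_normal
  have h1 : ⁅a, x'⁆ ∈ (inv0 D) := by
    rw [commutatorElement_def, mul_assoc, mul_assoc]
    refine mul_mem ha ?_
    rw [← mul_assoc]
    exact hn.conj_mem _ (inv_mem ha) x'
  have h2 : ⁅x, a'⁆ ∈ (inv0 D) := by
    rw [commutatorElement_def]
    exact mul_mem (hn.conj_mem _ ha' x) (inv_mem ha')
  refine ⟨⁅a, x'⁆ * ⁅x, a'⁆, mul_mem h1 h2, ⁅x, x'⁆, D.S0_comm hx hxt hx' hx't, ?_, ?_⟩
  · rw [D.comm_split haS hx ha'S hx', comm_one (D.comm_V ha'.1 (D.inv0_le_Q ha)), one_mul,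
      mul_assoc]
  · rw [D.add _ h1.1 _ h2.1, ← commutatorElement_inv x' a, D.psi_inv (?_ : ⁅x', a⁆ ∈ omZ p Q),
      D.psi_upper hx' ha.1, D.psi_upper hx ha'.1]
    · funext i
      fin_cases i <;> simp [sub_eq_add_neg, add_comm]
    · rw [commutatorElement_def]
      exact mul_mem (D.one.nat.normal.conj_mem _ ha.1 x') (inv_mem ha.1)

/-- A vector with vanishing second coordinate is fixed by `S`. -/
theorem fix_of_snd {a : X} (ha : a ∈ (inv0 D)) (h : ψ a 1 = 0) {s : X} (hs : s ∈ S) : s * a = a * s := by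
  have hm : ⁅s, a⁆ ∈ (inv0 D) := by
    rw [commutatorElement_def]
    exact mul_mem (D.inv0_normal.conj_mem _ ha s) (inv_mem ha)
  refine commutatorElement_eq_one_iff_mul_comm.1 (D.inv0_inj hm ?_)
  rw [D.psi_upper hs ha.1, h, mul_zero]
  funext i
  fin_cases i <;> simp

theorem mem_Q_of_entry {x : X} (hx : x ∈ S) (h : (ρ x) 0 1 = 0) : x ∈ Q := by
  rw [D.mem_Q_iff]
  obtain ⟨h1, h2, h3⟩ := Linear.mem_upperSL.1 (D.upper x hx)
  apply Linear.slTwo_ext <;> simp [h, h1, h2, h3]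

theorem Q_comm {a b : X} (ha : a ∈ Q) (hb : b ∈ Q) : ⁅a, b⁆ ∈ (der0 D) := by
  obtain ⟨c, hc, e, he, rfl⟩ := D.split_Q ha
  obtain ⟨c', hc', e', he', rfl⟩ := D.split_Q hb
  have hS := D.one.base.le
  rw [D.comm_split (hS (D.inv0_le_Q hc)) (hS he.1) (hS (D.inv0_le_Q hc')) (hS he'.1),
    comm_one (D.comm_V hc'.1 (D.inv0_le_Q hc)), comm_one (D.comm_V hc.1 he'.1).symm,
    comm_one (D.comm_V hc'.1 he.1), one_mul, one_mul, one_mul]
  exact Subgroup.commutator_mem_commutator he he'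

/-- The derived subgroup of the fixed part vanishes when `N_H(S)` is not inside. -/
theorem der0_eq_bot {H : Type v} [Group H] (ι : X →* H) (hι : Function.Injective ι) (γ : H)
    (hγS : ∀ s ∈ S, ∃ s' ∈ S, ι s' = γ * ι s * γ⁻¹) (hγ : ∀ x : X, ι x ≠ γ)
    (hmax : ∀ R : Subgroup X, IsPGroup p R → R ≠ ⊥ → R.Normal →
      ∀ h : H, (∀ r ∈ R, ∃ r' ∈ R, ι r' = h * ι r * h⁻¹) → ∃ x, ι x = h) : (der0 D) = ⊥ := by
  by_contra hne
  have hS := D.one.base.le
  have hDQ : (der0 D) ≤ Q := fun d hd => (D.der0_le hd).1.1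
  have hDS : (der0 D) ≤ S := hDQ.trans hS
  have hglob := hmax ((der0 D)) (D.one.base.pgroup.to_le hDS) hne D.der0_normal
  choose f hfS hf using fun s : ↥S => hγS s s.2
  have hfm : ∀ a b : ↥S, f (a * b) = f a * f b := fun a b => hι (by
    rw [map_mul, hf, hf, hf, Subgroup.coe_mul, map_mul]; group)
  let φ : ↥S →* ↥S := MonoidHom.mk' (fun s => ⟨f s, hfS s⟩) fun a b => Subtype.ext (hfm a b)
  have hφi : Function.Injective φ := fun a b hab => Subtype.ext (hι (by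
    have h : ι (f a) = ι (f b) := congrArg (fun z : ↥S => ι (z : X)) hab
    rw [hf, hf] at h
    exact mul_left_cancel (mul_right_cancel h)))
  have hφs : Function.Surjective φ := Finite.surjective_of_injective hφi
  have hcmp : ∀ a b : ↥S, (φ ⁅a, b⁆ : X) = ⁅(φ a : X), (φ b : X)⁆ := fun a b => by
    rw [map_commutatorElement]; rfl
  -- generators of `(der0 D)`
  have hgen : ∀ T : Subgroup X, (∀ a ∈ (Q ⊓ centralizer ({t} : Set X)), ∀ b ∈ (Q ⊓ centralizer ({t} : Set X)), ∀ (ha : a ∈ S) (hb : b ∈ S),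
      ⁅(φ ⟨a, ha⟩ : X), (φ ⟨b, hb⟩ : X)⁆ ∈ T) → ∀ d, ∀ hd : d ∈ S, d ∈ (der0 D) → (φ ⟨d, hd⟩ : X) ∈ T := by
    intro T hT d hd hdD
    have hle : (der0 D) ≤ (T.comap (S.subtype.comp φ)).map S.subtype := Subgroup.commutator_le.2 fun a ha b hb => by
      refine ⟨⁅(⟨a, hS ha.1⟩ : ↥S), ⟨b, hS hb.1⟩⁆, ?_, rfl⟩
      show (φ _ : X) ∈ T
      rw [hcmp]
      exact hT a ha b hb _ _
    obtain ⟨s, hs, e⟩ := hle hdD
    have e' : s = ⟨d, hd⟩ := Subtype.ext e
    exact e' ▸ hs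
  by_cases hcase : ∀ w : ↥S, (w : X) ∈ omZ p Q → ∀ a ∈ (inv0 D), ∀ x, x ∈ S → x ∈ (centralizer ({t} : Set X)) →
      (φ w : X) = a * x → (ρ x) 0 1 = 0 ∧ ψ a 1 = 0
  · -- the image of the module is centralised by `(inv0 D)` and `(res0 D)`
    have hcQ : ∀ s, ∀ hs : s ∈ S,
        (∀ w : ↥S, (w : X) ∈ omZ p Q → s * (φ w : X) = (φ w : X) * s) →
        ∃ q : ↥S, (q : X) ∈ Q ∧ (φ q : X) = s := by
      intro s hs hc
      obtain ⟨q, hq⟩ := hφs ⟨s, hs⟩
      refine ⟨q, ?_, congrArg Subtype.val hq⟩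
      rw [← D.one.centV, mem_centralizer_iff]
      intro w hw
      have hwS : w ∈ S := hS (omZ_le p Q hw)
      have h1 := hc ⟨w, hwS⟩ hw
      have h2 : φ (⟨w, hwS⟩ * q) = φ (q * ⟨w, hwS⟩) := Subtype.ext (by
        rw [map_mul, map_mul, Subgroup.coe_mul, Subgroup.coe_mul, hq]; exact h1.symm)
      exact congrArg Subtype.val (hφi h2)
    have hVpre : ∀ v ∈ (inv0 D), ∃ q : ↥S, (q : X) ∈ Q ∧ (φ q : X) = v := fun v hv =>
      hcQ v (hS (D.inv0_le_Q hv)) fun w hw => by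
        obtain ⟨a, ha, x, hx, hxt, hwx⟩ := D.split_S (φ w).2
        obtain ⟨h1, h2⟩ := hcase w hw a ha x hx hxt hwx
        rw [hwx]
        exact (D.comm_V hv.1 (mul_mem (D.inv0_le_Q ha) (D.mem_Q_of_entry hx h1))).symm
    have hLpre : ∀ l, l ∈ S → l ∈ (res0 D) → ∃ q : ↥S, (q : X) ∈ Q ∧ (φ q : X) = l := fun l hl hlL =>
      hcQ l hl fun w hw => by
        obtain ⟨a, ha, x, hx, hxt, hwx⟩ := D.split_S (φ w).2
        obtain ⟨h1, h2⟩ := hcase w hw a ha x hx hxt hwx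
        rw [hwx]
        exact (Commute.mul_right (D.fix_of_snd ha h2 hl)
          (D.res0_fix hlL ⟨D.mem_Q_of_entry hx h1, hxt⟩)).eq
    obtain ⟨s, hs, hsQ⟩ := SetLike.not_le_iff_exists.1 D.one.base.proper
    obtain ⟨a₁, ha₁, x₁, hx₁, hx₁t, rfl⟩ := D.split_S hs
    obtain ⟨e₁, he₁, l, hlS, hlL, rfl⟩ := D.split_S0 hx₁ hx₁t
    have hk : (ρ l) 0 1 ≠ 0 := fun h => hsQ
      (mul_mem (D.inv0_le_Q ha₁) (mul_mem he₁.1 (D.mem_Q_of_entry hlS h)))
    -- every fixed point in `(inv0 D)` lies in the image of `(der0 D)`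
    have hZ : ∀ z ∈ (inv0 D), ψ z 1 = 0 → ∃ d : ↥S, (d : X) ∈ (der0 D) ∧ (φ d : X) = z := by
      intro z hz hz1
      obtain ⟨v, hv, hvy⟩ := D.inv0_psurj ![0, ψ z 0 / (ρ l) 0 1]
      have he : ⁅l, v⁆ = z := by
        refine D.inv0_ext ?_ hz ?_
        · rw [commutatorElement_def]
          exact mul_mem (D.inv0_normal.conj_mem _ hv l) (inv_mem hv)
        · rw [D.psi_upper hlS hv.1, hvy]
          funext i
          fin_cases i <;> simp [hz1, mul_div_cancel₀ _ hk]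
      obtain ⟨q, hq, hql⟩ := hLpre l hlS hlL
      obtain ⟨q', hq', hqv⟩ := hVpre v hv
      refine ⟨⁅q, q'⁆, ?_, ?_⟩
      · exact D.Q_comm hq hq'
      · rw [hcmp, hql, hqv, he]
    set Z₀ : Subgroup X := (inv0 D) ⊓ centralizer (S : Set X) with hZ₀
    haveI := D.der0_normal
    have himg : ∀ d, ∀ hd : d ∈ S, d ∈ (der0 D) → ∃ z ∈ (inv0 D), ψ z 1 = 0 ∧ ∃ d' ∈ (der0 D),
        (φ ⟨d, hd⟩ : X) = z * d' := by
      intro d hd hdD
      have h := hgen (Z₀ ⊔ (der0 D)) (fun a _ b _ ha hb => by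
        obtain ⟨c, hc, x, hx, hxt, hcx⟩ := D.split_S (φ ⟨a, ha⟩).2
        obtain ⟨c', hc', x', hx', hx't, hcx'⟩ := D.split_S (φ ⟨b, hb⟩).2
        obtain ⟨z, hz, d', hd', he, hψ⟩ := D.comm_formula hc hc' hx hxt hx' hx't
        rw [hcx, hcx', he]
        exact mul_mem (mem_sup_left ⟨hz, mem_centralizer_iff.2 fun r hr =>
          D.fix_of_snd hz (by rw [hψ]; simp) hr⟩) (mem_sup_right hd')) d hd hdD
      obtain ⟨z, hz, d', hd', e⟩ := Subgroup.mem_sup_of_normal_right.1 h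
      refine ⟨z, hz.1, ?_, d', hd', e.symm⟩
      have hc : ⁅l, z⁆ = 1 := comm_one (mem_centralizer_iff.1 hz.2 l hlS)
      have h1 := congrFun (D.psi_upper hlS hz.1.1) 0
      rw [hc, D.psi_one] at h1
      simp at h1
      exact h1.resolve_left hk
    obtain ⟨c, hc0, hc⟩ := D.big
    obtain ⟨τ, hτ, hρτ⟩ := D.res0_surj (mat2 c 0 0 c⁻¹ (by simp [hc0]))
    have hτψ : ∀ z ∈ (inv0 D), ψ z 1 = 0 → ψ (τ * z * τ⁻¹) = ![c * ψ z 0, 0] := by
      intro z hz hz1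
      rw [D.conj τ z hz.1, hρτ, coe_mat2]
      funext i
      fin_cases i <;> simp [Matrix.mulVec, dotProduct, Fin.sum_univ_two, hz1]
    have hstab : ∀ d ∈ (der0 D), ∃ d' ∈ (der0 D), ι d' = (γ⁻¹ * ι τ * γ) * ι d * (γ⁻¹ * ι τ * γ)⁻¹ := by
      intro d hd
      obtain ⟨z, hz, hz1, d', hd', hfd⟩ := himg d (hDS hd) hd
      set r := τ * z * τ⁻¹ * z⁻¹ with hr
      have hr0 : r ∈ (inv0 D) := mul_mem (D.inv0_normal.conj_mem _ hz τ) (inv_mem hz)
      have hr1 : ψ r 1 = 0 := by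
        rw [hr, D.add _ (D.inv0_normal.conj_mem _ hz τ).1 _ (inv_mem hz.1), D.psi_inv hz.1,
          hτψ z hz hz1]
        simp [hz1]
      obtain ⟨d₀, hd₀, hφd₀⟩ := hZ r hr0 hr1
      refine ⟨d₀ * d, mul_mem hd₀ hd, ?_⟩
      have h1 : (φ (d₀ * ⟨d, hDS hd⟩) : X) = τ * (φ ⟨d, hDS hd⟩ : X) * τ⁻¹ := by
        rw [map_mul, Subgroup.coe_mul, hφd₀, hfd, hr]
        have hc' : d' * τ⁻¹ = τ⁻¹ * d' := (D.der0_central hd' τ⁻¹).symm
        calc τ * z * τ⁻¹ * z⁻¹ * (z * d') = τ * z * (τ⁻¹ * d') := by group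
          _ = τ * z * (d' * τ⁻¹) := by rw [hc']
          _ = _ := by group
      have h2 := congrArg ι h1
      rw [show (φ (d₀ * ⟨d, hDS hd⟩) : X) = f (d₀ * ⟨d, hDS hd⟩) from rfl,
        show (φ ⟨d, hDS hd⟩ : X) = f ⟨d, hDS hd⟩ from rfl] at h2
      rw [hf, map_mul ι, map_mul ι, map_inv ι, hf] at h2
      have e : ι ((d₀ : X) * d) = γ⁻¹ * (γ * ι ((d₀ * ⟨d, hDS hd⟩ : ↥S) : X) * γ⁻¹) * γ := by
        rw [Subgroup.coe_mul]; group
      rw [e, h2]; group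
    obtain ⟨x, hx⟩ := hglob _ hstab
    -- a nontrivial fixed point moved by `τ`
    obtain ⟨z, hz, hzψ⟩ := D.inv0_psurj ![1, 0]
    have hz1 : ψ z 1 = 0 := by rw [hzψ]; simp
    obtain ⟨d, hd, hφd⟩ := hZ z hz hz1
    have hfix : τ * z * τ⁻¹ = z := by
      refine hι ?_
      rw [← hφd, map_mul, map_mul, map_inv, show (φ d : X) = f d from rfl, hf]
      have h1 : ι x * ι (d : X) * (ι x)⁻¹ = ι (d : X) := by
        rw [← map_inv, ← map_mul, ← map_mul, D.der0_central hd x, mul_inv_cancel_right]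
      rw [hx] at h1
      calc ι τ * (γ * ι (d : X) * γ⁻¹) * (ι τ)⁻¹
          = γ * ((γ⁻¹ * ι τ * γ) * ι (d : X) * (γ⁻¹ * ι τ * γ)⁻¹) * γ⁻¹ := by group
        _ = _ := by rw [h1]
    have h2 := hτψ z hz hz1
    rw [hfix, hzψ] at h2
    have h3 : c = 1 := by simpa using (congrFun h2 0).symm
    exact hc 0 (by rw [h3]; simp)
  · -- the image of `Q` has its derived subgroup in `(der0 D)`
    push Not at hcase
    obtain ⟨w, hw, a, ha, x, hx, hxt, hwx, hne'⟩ := hcase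
    have hprop : ∀ q : ↥S, (q : X) ∈ Q → ∃ b ∈ (inv0 D), ∃ y, y ∈ S ∧ y ∈ (centralizer ({t} : Set X)) ∧ (φ q : X) = b * y ∧
        (ρ x) 0 1 * ψ b 1 = (ρ y) 0 1 * ψ a 1 := by
      intro q hq
      obtain ⟨b, hb, y, hy, hyt, hqy⟩ := D.split_S (φ q).2
      refine ⟨b, hb, y, hy, hyt, hqy, ?_⟩
      obtain ⟨z, hz, d, hd, he, hψ⟩ := D.comm_formula ha hb hx hxt hy hyt
      have h1 : ⁅a * x, b * y⁆ = 1 := by
        rw [← hwx, ← hqy]
        refine comm_one ?_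
        rw [← Subgroup.coe_mul, ← Subgroup.coe_mul, ← map_mul, ← map_mul]
        exact congrArg (fun z : ↥S => (φ z : X)) (Subtype.ext (D.comm_V hw hq).symm)
      rw [h1] at he
      have hz0 : t * z = z * t := by
        rw [eq_inv_of_mul_eq_one_left he.symm]
        exact (Commute.inv_right (D.der0_t hd)).eq
      have hz1 := D.inv0_eq_one hz hz0
      rw [hz1, D.psi_one] at hψ
      have := congrFun hψ 0
      simp at this
      exact sub_eq_zero.1 this.symm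
    have hDD : ∀ d, ∀ hd : d ∈ S, d ∈ (der0 D) → (φ ⟨d, hd⟩ : X) ∈ (der0 D) := by
      refine hgen ((der0 D)) fun q hq q' hq' hqS hq'S => ?_
      obtain ⟨b, hb, y, hy, hyt, hqy, hp1⟩ := hprop ⟨q, hqS⟩ hq.1
      obtain ⟨b', hb', y', hy', hy't, hqy', hp2⟩ := hprop ⟨q', hq'S⟩ hq'.1
      obtain ⟨z, hz, d, hd, he, hψ⟩ := D.comm_formula hb hb' hy hyt hy' hy't
      have h0 : (ρ y) 0 1 * ψ b' 1 - (ρ y') 0 1 * ψ b 1 = 0 := by
        rcases eq_or_ne ((ρ x) 0 1) 0 with h | h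
        · have ha1 : ψ a 1 ≠ 0 := hne' h
          have e1 : (ρ y) 0 1 = 0 := by
            rw [h, zero_mul] at hp1
            exact (mul_eq_zero.1 hp1.symm).resolve_right ha1
          have e2 : (ρ y') 0 1 = 0 := by
            rw [h, zero_mul] at hp2
            exact (mul_eq_zero.1 hp2.symm).resolve_right ha1
          rw [e1, e2]; simp
        · refine mul_left_cancel₀ h ?_
          rw [mul_zero]
          linear_combination (ρ y) 0 1 * hp2 - (ρ y') 0 1 * hp1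
      have hz1 : z = 1 := D.inv0_inj hz (by
        rw [hψ, h0]
        funext i
        fin_cases i <;> simp)
      rw [hqy, hqy', he, hz1, one_mul]
      exact hd
    obtain ⟨g, hg⟩ := hglob γ fun d hd =>
      ⟨_, hDD d (hDS hd) hd, hf ⟨d, hDS hd⟩⟩
    exact hγ g hg

section Small

variable (h0 : Coord.der0 D = ⊥)
include h0

theorem Q_abelian {a b : X} (ha : a ∈ Q) (hb : b ∈ Q) : a * b = b * a :=
  commutatorElement_eq_one_iff_mul_comm.1 (mem_bot.1 (h0 ▸ D.Q_comm ha hb))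

theorem mem_omZ_of_Q {a : X} (ha : a ∈ Q) : a ∈ omZ p Q :=
  ⟨ha, D.one.expOdd D.odd a (D.one.base.le ha), fun q hq => D.Q_abelian h0 hq ha⟩

theorem fixed_central {e : X} (he : e ∈ (Q ⊓ centralizer ({t} : Set X))) (g : X) : g * e = e * g :=
  mem_centralizer_iff.1 (D.central_of_fixed (D.mem_omZ_of_Q h0 he.1)
    (mem_centralizer_singleton_iff.1 he.2).symm) g (mem_top g)

theorem comm_S {a b : X} (ha : a ∈ S) (hb : b ∈ S) : ⁅a, b⁆ ∈ (inv0 D) := by
  obtain ⟨c, hc, x, hx, hxt, rfl⟩ := D.split_S ha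
  obtain ⟨c', hc', x', hx', hx't, rfl⟩ := D.split_S hb
  obtain ⟨z, hz, d, hd, he, -⟩ := D.comm_formula hc hc' hx hxt hx' hx't
  rw [h0, mem_bot] at hd
  rw [he, hd, mul_one]
  exact hz

/-- The transfer to an abelian Sylow subgroup separates `(res0 D)` from the centre. -/
theorem res0_inter {e : X} (he : e ∈ (res0 D)) (heQ : e ∈ Q) : e = 1 := by
  classical
  haveI := D.inv0_normal
  set π := QuotientGroup.mk' ((inv0 D)) with hπd
  have hπ : Function.Surjective π := QuotientGroup.mk'_surjective _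
  let SS : Sylow p X := ⟨S, D.one.base.pgroup, fun {K} hK hS => D.one.base.sylow K hS hK⟩
  let T : Sylow p (X ⧸ (inv0 D)) := SS.mapSurjective hπ
  have hT : (T : Subgroup (X ⧸ (inv0 D))) = S.map π := Sylow.coe_mapSurjective hπ SS
  set P : Subgroup (X ⧸ (inv0 D)) := (T : Subgroup (X ⧸ (inv0 D))) with hP
  letI : CommGroup ↥P :=
    { (inferInstance : Group ↥P) with
      mul_comm := by
        rintro ⟨a, ha⟩ ⟨b, hb⟩
        rw [hT] at ha hb
        obtain ⟨a', ha', rfl⟩ := ha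
        obtain ⟨b', hb', rfl⟩ := hb
        refine Subtype.ext (commutatorElement_eq_one_iff_mul_comm.1 ?_)
        show ⁅π a', π b'⁆ = 1
        rw [← map_commutatorElement]
        exact (QuotientGroup.eq_one_iff _).2 (D.comm_S h0 ha' hb') }
  let tr := MonoidHom.transfer (MonoidHom.id ↥P)
  have hker : (res0 D) ≤ (tr.comp π).ker := (Subgroup.closure_le _).2 fun g hg => by
    obtain ⟨k, hk⟩ := IsPGroup.iff_orderOf.1 T.2 (tr (π g))
    exact orderOf_eq_one_iff.1 (Nat.eq_one_of_dvd_coprimes (hg.2.pow_right k)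
      (orderOf_map_dvd (tr.comp π) g) (dvd_of_eq hk))
  have heE : e ∈ (Q ⊓ centralizer ({t} : Set X)) := ⟨heQ, D.res0_le he⟩
  have hc : ∀ y : X ⧸ (inv0 D), y * π e = π e * y := fun y => by
    obtain ⟨g, rfl⟩ := hπ y
    rw [← map_mul, ← map_mul, D.fixed_central h0 heE g]
  have hkey : ∀ (k : ℕ) (g₀ : X ⧸ (inv0 D)), g₀⁻¹ * π e ^ k * g₀ ∈ P → g₀⁻¹ * π e ^ k * g₀ = π e ^ k :=
    fun k g₀ _ => by
      have h1 : Commute g₀ (π e ^ k) := Commute.pow_right (hc g₀) k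
      rw [mul_assoc, ← h1.eq, inv_mul_cancel_left]
  have h1 := hker he
  rw [MonoidHom.mem_ker, MonoidHom.comp_apply, MonoidHom.transfer_eq_pow (MonoidHom.id ↥P) (π e) hkey,
    MonoidHom.id_apply] at h1
  have h2 : π e ^ P.index = 1 := congrArg Subtype.val h1
  have h3 : π e ^ p = 1 := by
    rw [← map_pow, D.one.expOdd D.odd e (D.one.base.le heQ), map_one]
  have h4 := pow_gcd_eq_one.2 ⟨h2, h3⟩
  rw [Nat.Coprime.gcd_eq_one ((hp.out.coprime_iff_not_dvd.2 T.not_dvd_index).symm), pow_one] at h4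
  have h5 : e ∈ (inv0 D) := (QuotientGroup.eq_one_iff e).1 h4
  exact D.inv0_eq_one h5 (mem_centralizer_singleton_iff.1 heE.2).symm

/-- The decomposition of the whole group. -/
theorem exists_decomposition : ∃ G₀ E : Subgroup X, Cfsg.IsInternalDirectProduct G₀ E ⊤ ∧
    Cfsg.IsElementaryAbelian p E ∧ Nonempty (↥G₀ ≃* ↥(Cfsg.qdOver F)) := by
  classical
  choose σ hσ hσψ using D.inv0_psurj
  choose lm hlm hlmρ using D.res0_surj
  have hσu : ∀ x, ∀ a ∈ (inv0 D), ψ a = x → σ x = a := fun x a ha h =>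
    D.inv0_ext (hσ x) ha (by rw [hσψ, h])
  have hlmu : ∀ A B, lm A * lm B = lm (A * B) := fun A B => by
    refine eq_of_mul_inv_eq_one (D.res0_inter h0 (mul_mem (mul_mem (hlm A) (hlm B)) (inv_mem (hlm _))) ?_)
    rw [D.mem_Q_iff, map_mul, map_mul, map_inv, hlmρ, hlmρ, hlmρ, mul_inv_cancel]
  let j : ↥(Cfsg.qdOver F) →* X := MonoidHom.mk'
    (fun m => σ (EvenLocal.Qd.tr m) * lm (EvenLocal.Qd.lin m)) fun m m' => by
      have hconj : lm (EvenLocal.Qd.lin m) * σ (EvenLocal.Qd.tr m') * (lm (EvenLocal.Qd.lin m))⁻¹ ∈ (inv0 D) :=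
        D.inv0_normal.conj_mem _ (hσ _) _
      rw [EvenLocal.Qd.tr_mul, map_mul, ← hlmu,
        hσu _ ((lm (EvenLocal.Qd.lin m) * σ (EvenLocal.Qd.tr m') * (lm (EvenLocal.Qd.lin m))⁻¹) *
          σ (EvenLocal.Qd.tr m)) (mul_mem hconj (hσ _)) (by
            rw [D.add _ hconj.1 _ (hσ _).1, D.conj _ _ (hσ _).1, hlmρ, hσψ, hσψ])]
      have hc := D.comm_V (hσ (EvenLocal.Qd.tr m)).1 (D.inv0_le_Q hconj)
      rw [hc]; group
  have hρj : ∀ m, ρ (j m) = EvenLocal.Qd.lin m := fun m => by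
    show ρ (σ _ * lm _) = _
    rw [map_mul, hlmρ, D.mem_Q_iff.1 (D.inv0_le_Q (hσ _)), one_mul]
  have hone : lm 1 = 1 := D.res0_inter h0 (hlm 1) (by rw [D.mem_Q_iff, hlmρ])
  have hσ1 : σ 0 = 1 := hσu 0 1 (one_mem _) D.psi_one
  have hjinj : Function.Injective j := by
    refine (injective_iff_map_eq_one j).2 fun m hm => ?_
    have h1 : EvenLocal.Qd.lin m = 1 := by rw [← hρj, hm, map_one]
    have h2 : σ (EvenLocal.Qd.tr m) = 1 := by
      have : σ (EvenLocal.Qd.tr m) * lm (EvenLocal.Qd.lin m) = 1 := hm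
      rwa [h1, hone, mul_one] at this
    refine EvenLocal.Qd.ext_lin_tr (h1.trans (map_one _).symm) ?_
    rw [EvenLocal.Qd.tr_one, ← hσψ (EvenLocal.Qd.tr m), h2, D.psi_one]
  refine ⟨j.range, (Q ⊓ centralizer ({t} : Set X)), ⟨le_top, le_top, fun a _ b hb => D.fixed_central h0 hb a, ?_, ?_⟩,
    ⟨⟨⟨fun a b => Subtype.ext (D.fixed_central h0 b.2 a)⟩⟩,
      fun a ha => D.one.expOdd D.odd a (D.one.base.le ha.1)⟩,
    ⟨(MonoidHom.ofInjective hjinj).symm⟩⟩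
  · rw [eq_bot_iff]
    rintro _ ⟨⟨m, rfl⟩, hm⟩
    rw [mem_bot]
    have h1 : EvenLocal.Qd.lin m = 1 := by rw [← hρj, D.mem_Q_iff.1 hm.1]
    have h2 : j m = σ (EvenLocal.Qd.tr m) := by
      show σ _ * lm _ = _
      rw [h1, hone, mul_one]
    rw [h2] at hm ⊢
    exact D.inv0_eq_one (hσ _) (mem_centralizer_singleton_iff.1 hm.2).symm
  · rw [eq_top_iff]
    intro g _
    obtain ⟨a, ha, x, hx, rfl⟩ := D.split_top g
    have he : x * (lm (ρ x))⁻¹ ∈ (Q ⊓ centralizer ({t} : Set X)) :=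
      mem_inf.2 ⟨by rw [D.mem_Q_iff, map_mul, map_inv, hlmρ, mul_inv_cancel],
        mul_mem hx (inv_mem (D.res0_le (hlm _)))⟩
    have e : a * x = j (mkEl (ρ x) (ψ a)) * (x * (lm (ρ x))⁻¹) := by
      show a * x = σ _ * lm _ * _
      rw [EvenLocal.Qd.tr_mkEl, EvenLocal.Qd.lin_mkEl, hσu _ a ha rfl, mul_assoc,
        D.fixed_central h0 he (lm (ρ x)), inv_mul_cancel_right]
    rw [e]
    exact mul_mem (mem_sup_left ⟨_, rfl⟩) (mem_sup_right he)

end Small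

end Coord

/-- Coordinates exist for a configuration of type one. -/
theorem exists_coord {S M : Subgroup X} (T : TypeOne p S (Cfsg.pCore p X) M) (hp5 : 5 ≤ p) {n : ℕ}
    (hn : 1 ≤ n) (hF : Fintype.card F = p ^ n)
    (hrel : Fintype.card F = (Cfsg.pCore p X).relIndex S) :
    ∃ (ρ : X →* SL(2, F)) (ψ : X → Fin 2 → F) (t : X), Coord p S (Cfsg.pCore p X) M ρ ψ t := by
  classical
  set Q := Cfsg.pCore p X with hQ
  have B := T.base
  have L := T.nat
  haveI := B.normal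
  haveI := L.normal
  haveI : CharP F p := charP_of_card_eq_prime_pow hF
  set V := omZ p Q with hV
  set C := V ⊓ centralizer ((⊤ : Subgroup X) : Set X) with hC
  have hCc : ∀ c ∈ C, ∀ g : X, g * c = c * g := fun c hc g => mem_centralizer_iff.1 hc.2 g (mem_top g)
  haveI hCn : C.Normal := ⟨fun c hc g => by rwa [hCc c hc g, mul_inv_cancel_right]⟩
  have hcp : ∀ g : X, (orderOf g).Coprime p → ∀ w ∈ V, ⁅g, w⁆ ∈ C → g * w = w * g := fun g hg w _ h =>
    commutatorElement_eq_one_iff_mul_comm.1 (eq_one_of_commutes_coprime (p := p) (k := 1) hg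
      (by rw [pow_one]; exact h.1.2.1) (hCc _ h g))
  have hker : ∀ g : X, (∀ w ∈ V, ⁅g, w⁆ ∈ C) ↔ g ∈ Q := by
    refine fun g => ⟨fun hg => ?_, fun hg w hw => ?_⟩
    · have hKn : (dispInto V C).Normal := ⟨fun k hk a w hw => by
        have h := hk (a⁻¹ * w * a) (by simpa using L.normal.conj_mem w hw a⁻¹)
        have e : ⁅a * k * a⁻¹, w⁆ = a * ⁅k, a⁻¹ * w * a⁆ * a⁻¹ := by
          simp only [commutatorElement_def]; group
        rw [e]; exact hCn.conj_mem _ h a⟩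
      refine Cores.le_pCore hKn (IsPGroup.iff_orderOf.2 fun k => ?_) hg
      obtain ⟨a, m, hpm, ham⟩ :=
        Nat.exists_eq_pow_mul_and_not_dvd (orderOf_pos (k : X)).ne' p hp.out.ne_one
      refine ⟨a, ?_⟩
      have hcop : (orderOf ((k : X) ^ p ^ a)).Coprime p := by
        rw [orderOf_pow_of_dvd (pow_ne_zero _ hp.out.ne_zero) ⟨m, ham⟩, ham,
          Nat.mul_div_cancel_left _ (pow_pos hp.out.pos _)]
        exact ((hp.out.coprime_iff_not_dvd).2 hpm).symm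
      have hQm : (k : X) ^ p ^ a ∈ Q := by
        rw [← T.centV, mem_centralizer_iff]
        exact fun w hw => (hcp _ hcop w hw ((pow_mem k.2 (p ^ a) : _ ∈ dispInto V C) w hw)).symm
      obtain ⟨b, hb⟩ := IsPGroup.iff_orderOf.1 (B.pgroup.to_le B.le) ⟨_, hQm⟩
      rw [← Subgroup.orderOf_coe] at hb
      have h1 : (k : X) ^ p ^ a = 1 := orderOf_eq_one_iff.1
        (Nat.eq_one_of_dvd_coprimes (hcop.pow_right b) dvd_rfl (dvd_of_eq hb))
      have h2 := orderOf_dvd_of_pow_eq_one h1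
      rw [← Subgroup.orderOf_coe]
      refine le_antisymm (Nat.le_of_dvd (pow_pos hp.out.pos _) h2) ?_
      rw [ham]
      exact Nat.le_mul_of_pos_right _ (Nat.pos_of_ne_zero fun h => hpm (h ▸ dvd_zero p))
    · rw [comm_one (hw.2.2 g hg)]; exact one_mem C
  have hfix : ∀ w ∈ V, (∀ g : X, ⁅g, w⁆ ∈ C) → w ∈ C := by
    intro w hw h
    obtain ⟨g, hg⟩ := B.exists_notMem
    have hwS : w ∈ centralizer (S : Set X) := by
      by_contra hwS
      exact B.proper fun s hs => B.disp_ne L hw hwS hs (h s).2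
    refine ⟨hw, B.eq_fixed_of_two L hg hw hwS ?_⟩
    have e : g⁻¹ * w * g = ⁅g⁻¹, w⁆ * w := by simp only [commutatorElement_def]; group
    rw [e]
    exact mul_mem (mem_centralizer_iff.2 fun s _ => hCc _ (h g⁻¹) s) hwS
  have hquad : ∀ s ∈ S, ∀ r ∈ S, ∀ w ∈ V, ⁅r, ⁅s, w⁆⁆ ∈ C := by
    intro s hs r hr w hw
    have h := L.quad s⁻¹ (inv_mem hs) w hw
    have hsw : s * w * s⁻¹ ∈ V := L.normal.conj_mem w hw s
    have hc : (s * w * s⁻¹) * w⁻¹ = w⁻¹ * (s * w * s⁻¹) :=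
      congrArg Subtype.val (L.comm.is_comm.comm ⟨_, hsw⟩ ⟨_, inv_mem hw⟩)
    rw [inv_inv, ← hc, ← commutatorElement_def] at h
    rw [comm_one (mem_centralizer_iff.1 h r hr)]
    exact one_mem C
  set Z := V ⊓ centralizer (S : Set X) with hZ
  have hZq : Z.relIndex V ≤ Q.relIndex S := by
    refine le_of_eq (Nat.eq_of_mul_eq_mul_left (Nat.card_pos (α := Z)) ?_)
    calc Nat.card Z * Z.relIndex V = (⊥ : Subgroup X).relIndex Z * Z.relIndex V := by rw [relIndex_bot_left]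
      _ = (⊥ : Subgroup X).relIndex V := relIndex_mul_relIndex _ _ _ bot_le inf_le_left
      _ = Nat.card V := relIndex_bot_left V
      _ = _ := by rw [L.cardW, mul_comm]
  obtain ⟨-, ρ₀, ψ₀, hρ₀, hker₀, hψ₀, hψ0, heq⟩ := natSection_of_quadratic B F hrel V C L.normal inf_le_left
    hker (fun a ha c hc => by rw [comm_one (hc.2.2 a ha.1)]; exact one_mem C)
    (fun w hw => by rw [hw.2.1]; exact one_mem C) hfix hquad Z
    (inf_le_inf_left _ (centralizer_le (fun _ _ => trivial))) inf_le_left hZq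
    (fun z hz s hs => by rw [comm_one (mem_centralizer_iff.1 hz.2 s hs)]; exact one_mem C)
  obtain ⟨v, hv, hvfix⟩ := EvenLocal.Qd.exists_fixed_vector (p := p) (S.map ρ₀) (B.pgroup.map _)
  obtain ⟨A, hA⟩ := EvenLocal.Qd.exists_mulVec_eq hv
  set ρ := (MulAut.conj A⁻¹).toMonoidHom.comp ρ₀ with hρ
  have hρa : ∀ g, ρ g = A⁻¹ * ρ₀ g * A := fun g => by simp [hρ]
  set ψ : X → Fin 2 → F := fun x => if h : x ∈ V then
    ((A⁻¹ : SL(2, F)) : Matrix (Fin 2) (Fin 2) F) *ᵥ ψ₀ (Additive.ofMul ⟨x, h⟩) else 0 with hψ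
  have hψV : ∀ x, ∀ h : x ∈ V,
      ψ x = ((A⁻¹ : SL(2, F)) : Matrix (Fin 2) (Fin 2) F) *ᵥ ψ₀ (Additive.ofMul ⟨x, h⟩) := fun x h => dif_pos h
  have hcoe : ∀ (a b : SL(2, F)) (x : Fin 2 → F), (a : Matrix (Fin 2) (Fin 2) F) *ᵥ
      ((b : Matrix (Fin 2) (Fin 2) F) *ᵥ x) = ((a * b : SL(2, F)) : Matrix (Fin 2) (Fin 2) F) *ᵥ x :=
    fun a b x => by rw [Matrix.mulVec_mulVec, ← Matrix.SpecialLinearGroup.coe_mul]
  -- the involution
  obtain ⟨g₀, hg₀⟩ := hρ₀ (-1)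
  obtain ⟨a, m, hpm, ham⟩ := Nat.exists_eq_pow_mul_and_not_dvd (orderOf_pos g₀).ne' p hp.out.ne_one
  set t := g₀ ^ p ^ a with ht
  have hρt : ρ₀ t = -1 := by
    rw [ht, map_pow, hg₀, Odd.neg_one_pow ((hp.out.odd_of_ne_two (by omega)).pow)]
  have htc : (orderOf t).Coprime p := by
    rw [ht, orderOf_pow_of_dvd (pow_ne_zero _ hp.out.ne_zero) ⟨m, ham⟩, ham,
      Nat.mul_div_cancel_left _ (pow_pos hp.out.pos _)]
    exact ((hp.out.coprime_iff_not_dvd).2 hpm).symm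
  have ht2 : t * t = 1 := by
    have hQt : t * t ∈ Q := by
      rw [← hker₀, MonoidHom.mem_ker, map_mul, hρt, neg_mul_neg, one_mul]
    obtain ⟨b, hb⟩ := IsPGroup.iff_orderOf.1 (B.pgroup.to_le B.le) ⟨_, hQt⟩
    rw [← Subgroup.orderOf_coe] at hb
    have h1 : (orderOf (t * t)).Coprime p :=
      Nat.Coprime.coprime_dvd_left (by rw [← sq]; exact orderOf_pow_dvd 2) htc
    exact orderOf_eq_one_iff.1 (Nat.eq_one_of_dvd_coprimes (h1.pow_right b) dvd_rfl (dvd_of_eq hb))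
  have hcardF : 5 ≤ Fintype.card F := by
    rw [hF]; exact hp5.trans (Nat.le_self_pow (by omega) p)
  refine ⟨ρ, ψ, t, ?_⟩
  refine { one := T, hQ := rfl, odd := by omega, two := ?_, big := ?_, rsurj := ?_, rker := ?_,
           add := ?_, zero_iff := ?_, conj := ?_, psurj := ?_, upper := ?_, t_sq := ht2, rho_t := ?_ }
  · intro h
    have h2 : ((2 : ℕ) : F) = 0 := by exact_mod_cast h
    rw [CharP.cast_eq_zero_iff F p, Nat.prime_dvd_prime_iff_eq hp.out Nat.prime_two] at h2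
    omega
  · obtain ⟨c, hc0, hc2⟩ : ∃ c : F, c ≠ 0 ∧ c ^ 2 ≠ 1 := by
      by_contra h
      push Not at h
      have h3 : (Finset.univ : Finset F) ⊆ {0, 1, -1} := fun c _ => by
        rcases eq_or_ne c 0 with rfl | hc
        · simp
        rcases sq_eq_one_iff.1 (h c hc) with rfl | rfl <;> simp
      have h4 := (Finset.card_le_card h3).trans Finset.card_le_three
      rw [Finset.card_univ] at h4
      omega
    refine ⟨c, hc0, fun k h => hc2 ?_⟩
    haveI : ExpChar F p := ExpChar.prime hp.out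
    have e : (c ^ 2 - 1) ^ p ^ k = 0 := by rw [sub_pow_char_pow, one_pow, pow_right_comm, h, sub_self]
    exact sub_eq_zero.1 (pow_eq_zero_iff (pow_ne_zero _ hp.out.ne_zero) |>.1 e)
  · exact (MulAut.conj A⁻¹).surjective.comp hρ₀
  · ext g
    rw [← hker₀, MonoidHom.mem_ker, MonoidHom.mem_ker, hρ, MonoidHom.comp_apply]
    exact map_eq_one_iff _ (MulAut.conj A⁻¹).injective
  · intro x hx y hy
    rw [hψV _ (mul_mem hx hy), hψV _ hx, hψV _ hy, ← Matrix.mulVec_add, ← map_add, ← ofMul_mul]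
    rfl
  · intro x hx
    have h1 := hψ0 ⟨x, hx⟩
    rw [hψV _ hx]
    refine ⟨fun h => (h1.1 ?_).2, fun h => by rw [h1.2 ⟨hx, h⟩, Matrix.mulVec_zero]⟩
    have h2 := congrArg (fun z => (A : Matrix (Fin 2) (Fin 2) F) *ᵥ z) h
    simp only [hcoe, mul_inv_cancel, Matrix.SpecialLinearGroup.coe_one, Matrix.one_mulVec,
      Matrix.mulVec_zero] at h2
    exact h2
  · intro g x hx
    rw [hψV _ (L.normal.conj_mem x hx g), hψV _ hx, heq g ⟨x, hx⟩ ⟨_, L.normal.conj_mem x hx g⟩ rfl,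
      hρa, hcoe, hcoe, mul_assoc _ A A⁻¹, mul_inv_cancel, mul_one]
  · intro x
    obtain ⟨w, hw⟩ := hψ₀ ((A : Matrix (Fin 2) (Fin 2) F) *ᵥ x)
    refine ⟨w.toMul, w.toMul.2, ?_⟩
    rw [hψV _ w.toMul.2]
    refine (congrArg (fun z => ((A⁻¹ : SL(2, F)) : Matrix (Fin 2) (Fin 2) F) *ᵥ z) hw).trans ?_
    simp only [hcoe, inv_mul_cancel, Matrix.SpecialLinearGroup.coe_one, Matrix.one_mulVec]
  · intro s hs
    have h : (ρ s : Matrix (Fin 2) (Fin 2) F) *ᵥ ![1, 0] = ![1, 0] := by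
      rw [hρa, ← hcoe, hA, ← hcoe, hvfix _ (mem_map_of_mem ρ₀ hs), ← hA, hcoe, inv_mul_cancel,
        Matrix.SpecialLinearGroup.coe_one, Matrix.one_mulVec]
    have h0 := congrFun h 0
    have h1 := congrFun h 1
    simp [Matrix.mulVec, dotProduct, Fin.sum_univ_two] at h0 h1
    have hd := Linear.slTwo_det (ρ s)
    rw [h0, h1, one_mul, mul_zero, sub_zero] at hd
    exact Linear.mem_upperSL.2 ⟨h1, h0, hd⟩
  · rw [hρa, hρt, mul_neg, neg_mul, mul_one, inv_mul_cancel]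

end Cfsg.Agent.PushUp
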