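import Cfsg.Agent.PushUp.TwoExists
import Cfsg.Agent.PushUp.Natural
import Cfsg.Agent.PushUp.Index

/-!
The structure of the two types.
-/

set_option autoImplicit false
set_option linter.style.haveILetI false
set_option linter.unusedSectionVars false

open Subgroup
open scoped commutatorElement

namespace Cfsg.Agent.PushUp

open LAE62

universe u

variable {G : Type u} [Group G]

theorem comm_inv_left (g x : G) : ⁅g⁻¹, x⁆ = g⁻¹ * ⁅g, x⁆⁻¹ * g⁻¹⁻¹ := by
  simp only [commutatorElement_def]; group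

theorem comm_conj_left (h g x : G) : ⁅h * g * h⁻¹, x⁆ = h * ⁅g, h⁻¹ * x * h⁆ * h⁻¹ := by
  simp only [commutatorElement_def]; group

/-- The elements acting trivially on a normal section. -/
def secKer (W N : Subgroup G) [hN : N.Normal] : Subgroup G where
  carrier := {g | ∀ x ∈ W, ⁅g, x⁆ ∈ N}
  one_mem' := fun x _ => by simp [commutatorElement_def]
  mul_mem' := fun {g h} hg hh x hx => by
    rw [comm_left_mul]; exact mul_mem (hN.conj_mem _ (hh x hx) g) (hg x hx)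
  inv_mem' := fun {g} hg x hx => by
    rw [comm_inv_left]; exact hN.conj_mem _ (inv_mem (hg x hx)) _

theorem secKer_normal {W N : Subgroup G} [hN : N.Normal] (hW : W.Normal) : (secKer W N).Normal :=
  ⟨fun g hg h x hx => by
    rw [comm_conj_left]; exact hN.conj_mem _ (hg _ (by simpa using hW.conj_mem x hx h⁻¹)) h⟩

theorem comm_sup_le {S A A' B C : Subgroup G} (hA : A ≤ S) (hA' : A' ≤ S)
    (hC : ∀ s ∈ S, ∀ c ∈ C, s * c * s⁻¹ ∈ C) (h₁ : ⁅A, B⁆ ≤ C) (h₂ : ⁅A', B⁆ ≤ C) :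
    ⁅A ⊔ A', B⁆ ≤ C := by
  rw [Subgroup.commutator_le]
  intro a ha b hb
  have hle : A ⊔ A' ≤ moveStab S C hC b := sup_le
    (fun x hx => ⟨hA hx, h₁ (Subgroup.commutator_mem_commutator hx hb)⟩)
    (fun x hx => ⟨hA' hx, h₂ (Subgroup.commutator_mem_commutator hx hb)⟩)
  exact (hle ha).2

variable [Finite G] {p : ℕ} [hp : Fact p.Prime] {S Q M : Subgroup G}

theorem Base.eq_top_of_S_le (B : Base p S Q M) {K : Subgroup G} (hK : K.Normal) (hS : S ≤ K) : K = ⊤ := by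
  obtain ⟨g, hg⟩ := B.exists_notMem
  rw [eq_top_iff, ← B.gen_sup hg]
  refine sup_le hS ?_
  rintro _ ⟨s, hs, rfl⟩
  exact hK.conj_mem s (hS hs) g

theorem Base.le_Q_of_kernel (B : Base p S Q M) {K : Subgroup G} (hK : K.Normal)
    (hKS : ∀ x ∈ S, x ∈ K → x ∈ Q) (hco : ∀ c ∈ K, (orderOf c).Coprime p → c ∈ Q) : K ≤ Q := by
  intro g hg
  obtain ⟨i, m, hm, hom⟩ := Nat.exists_eq_pow_mul_and_not_dvd (orderOf_pos g).ne' p hp.out.ne_one
  have hm0 : m ≠ 0 := fun h => hm (h ▸ dvd_zero p)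
  have hcop : (p ^ i).Coprime m := (((hp.out.coprime_iff_not_dvd).2 hm)).pow_left i
  have h3 : g ^ m ∈ Q := by
    have ho : orderOf (g ^ m) = p ^ i := by
      rw [orderOf_pow_of_dvd hm0 (hom ▸ dvd_mul_left _ _), hom,
        Nat.mul_div_cancel _ (Nat.pos_of_ne_zero hm0)]
    have hpx : IsPGroup p (zpowers (g ^ m)) :=
      IsPGroup.of_card (n := i) (by rw [Nat.card_zpowers, ho])
    obtain ⟨P, hP⟩ := hpx.exists_le_sylow
    obtain ⟨PS, hPS⟩ := B.pgroup.exists_le_sylow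
    have hPS' : (PS : Subgroup G) = S := B.sylow _ hPS PS.2
    obtain ⟨h, hh⟩ := MulAction.exists_smul_eq G P PS
    have hmem : h * g ^ m * h⁻¹ ∈ S := by
      rw [← hPS', ← hh, Sylow.coe_subgroup_smul]
      exact ⟨_, hP (mem_zpowers _), rfl⟩
    have := hKS _ hmem (hK.conj_mem _ (pow_mem hg m) h)
    simpa [mul_assoc] using B.conj_mem_Q this h⁻¹
  have h4 : g ^ p ^ i ∈ Q := hco _ (pow_mem hg _) (by
    rw [orderOf_pow_of_dvd (pow_ne_zero _ hp.out.ne_zero) (hom ▸ dvd_mul_right _ _), hom,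
      Nat.mul_div_cancel_left _ (pow_pos hp.out.pos i)]
    exact ((hp.out.coprime_iff_not_dvd).2 hm).symm)
  have hbez := Nat.gcd_eq_gcd_ab (p ^ i) m
  rw [hcop.gcd_eq_one] at hbez
  have h5 := mul_mem (zpow_mem h4 (Nat.gcdA (p ^ i) m)) (zpow_mem h3 (Nat.gcdB (p ^ i) m))
  rwa [← zpow_natCast g m, ← zpow_natCast g (p ^ i), ← zpow_mul, ← zpow_mul, ← zpow_add, ← hbez,
    Nat.cast_one, zpow_one] at h5

theorem relIndex_F_eq (L : NatLike S Q M (omZ p Q)) :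
    (omZ p Q ⊓ centralizer (S : Set G)).relIndex (omZ p Q) = Q.relIndex S := by
  have h := L.cardW
  rw [← Subgroup.card_mul_index ((omZ p Q ⊓ centralizer (S : Set G)).subgroupOf (omZ p Q)),
    Nat.card_congr (Subgroup.subgroupOfEquivOfLe inf_le_left).toEquiv, mul_comm] at h
  exact Nat.eq_of_mul_eq_mul_right Nat.card_pos h

namespace TypeOne

variable (T : TypeOne p S Q M)
include T

local notation "VV" => omZ p Q
local notation "FF" => omZ p Q ⊓ centralizer ((⊤ : Subgroup G) : Set G)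

theorem F_normal : (FF).Normal :=
  ⟨fun z hz a => by rw [mem_centralizer_iff.1 hz.2 a (mem_top a), mul_inv_cancel_right]; exact hz⟩

theorem natSection (F : Type) [Field F] [Fintype F] (hF : Fintype.card F = Q.relIndex S) :
    NatSection F Q VV FF := by
  have B := T.base
  haveI := T.F_normal
  haveI := B.normal
  have hVn := omZ_normal p B.normal
  have hcentral : ∀ z ∈ FF, ∀ g : G, g * z = z * g := fun z hz g => mem_centralizer_iff.1 hz.2 g (mem_top g)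
  refine natSection_of_quadratic B F hF VV FF hVn inf_le_left (fun g => ⟨fun hg => ?_, fun hg w hw => ?_⟩)
    (fun a ha c hc => ?_) (fun w hw => by rw [hw.2.1]; exact one_mem _) (fun w hw hfix => ?_) ?_
    (VV ⊓ centralizer (S : Set G)) (inf_le_inf_left _ (centralizer_anti le_top)) inf_le_left
    (relIndex_F_eq T.nat).le ?_
  · refine B.le_Q_of_kernel (secKer_normal (N := FF) hVn) (fun s hs hk => ?_) (fun c hc hco => ?_) hg
    · by_contra hsQ
      obtain ⟨w, hw, hwZ⟩ : ∃ w ∈ VV, w ∉ centralizer (S : Set G) := by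
        by_contra h
        push Not at h
        apply hsQ
        rw [← T.centV, mem_centralizer_iff]
        exact fun v hv => (mem_centralizer_iff.1 (h v hv) s hs).symm
      exact hsQ (B.disp_ne T.nat hw hwZ hs (hk w hw).2)
    · rw [← T.centV, mem_centralizer_iff]
      intro w hw
      exact (conj_eq_of_coprime hco rfl ((hc w hw).1.2.1) (hcentral _ (hc w hw) c)).symm
  · rw [comm_one (hw.2.2 g hg)]; exact one_mem _
  · rw [comm_one (congrArg Subtype.val ((omZ_comm p Q).is_comm.comm ⟨a, ha⟩ ⟨c, hc⟩))]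
    exact one_mem _
  · obtain ⟨g₀, hg₀⟩ := B.exists_notMem
    obtain ⟨x, hx, hxQ⟩ := SetLike.not_le_iff_exists.1 B.proper
    have h1 : ∀ v ∈ VV, (∀ g : G, ⁅g, v⁆ ∈ FF) → v ∈ centralizer (S : Set G) := fun v hv hf => by
      by_contra h
      exact hxQ (B.disp_ne T.nat hv h hx (hf x).2)
    refine ⟨hw, B.eq_fixed_of_two T.nat hg₀ hw (h1 w hw hfix) (h1 _ (by simpa using hVn.conj_mem w hw g₀⁻¹)
      fun g => ?_)⟩
    have h2 := T.F_normal.conj_mem _ (hfix (g₀ * g * g₀⁻¹)) g₀⁻¹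
    convert h2 using 1
    simp [commutatorElement_def, mul_assoc]
  · intro s hs t ht w hw
    have h : ⁅s, w⁆ ∈ centralizer (S : Set G) := by
      have h := T.nat.quad s⁻¹ (inv_mem hs) w⁻¹ (inv_mem hw)
      have e : ⁅s, w⁆ = (w⁻¹⁻¹ * (s⁻¹⁻¹ * w⁻¹ * s⁻¹))⁻¹ := by
        simp only [commutatorElement_def]; group
      rw [e]
      exact Subgroup.inv_mem (centralizer (S : Set G)) h
    rw [comm_one (mem_centralizer_iff.1 h t ht)]
    exact one_mem _
  · intro z hz s hs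
    rw [comm_one (mem_centralizer_iff.1 hz.2 s hs)]
    exact one_mem _

theorem hyper : Cfsg.iterCommutator Q ⊤ 2 ≤ VV := by
  have B := T.base
  haveI := B.normal
  haveI hVn := omZ_normal p B.normal
  haveI : (⁅Q, Q⁆ : Subgroup G).Normal := Subgroup.commutator_normal Q Q
  obtain ⟨W, hWS, -, -, hWn, hsup, hWQ⟩ := T.split
  have hY : secKer Q (VV ⊔ ⁅Q, Q⁆) = ⊤ := by
    refine B.eq_top_of_S_le (secKer_normal B.normal) ?_
    rw [← hsup]
    refine sup_le (fun q hq x hx => mem_sup_right (Subgroup.commutator_mem_commutator hq hx)) ?_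
    intro w hw x hx
    refine mem_sup_left ?_
    have h : ⁅w, x⁆ ∈ W ⊓ Q := by
      refine ⟨?_, ?_⟩
      · rw [commutatorElement_def, mul_assoc, mul_assoc]
        refine mul_mem hw ?_
        rw [← mul_assoc]
        exact hWn x (B.le hx) _ (inv_mem hw)
      · rw [commutatorElement_def]
        exact Q.mul_mem (B.conj_mem_Q hx w) (Q.inv_mem hx)
    rw [hWQ] at h
    exact ⟨(B.conj_mem_Q hx w |> fun h' => Q.mul_mem h' (Q.inv_mem hx)), h.2.1, fun q hq => h.2.2 q (B.le hq)⟩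
  have h1 : Cfsg.iterCommutator Q ⊤ 1 ≤ VV ⊔ ⁅Q, Q⁆ := by
    show ⁅Q, (⊤ : Subgroup G)⁆ ≤ _
    rw [Subgroup.commutator_le]
    intro q hq g _
    rw [← commutatorElement_inv]
    exact inv_mem ((hY.ge (mem_top g) : g ∈ secKer Q (VV ⊔ ⁅Q, Q⁆)) q hq)
  haveI hCn : (centralizer ((⁅Q, Q⁆ : Subgroup G) : Set G)).Normal := inferInstance
  have hC : centralizer ((⁅Q, Q⁆ : Subgroup G) : Set G) = ⊤ := by
    refine B.eq_top_of_S_le hCn (fun s hs => mem_centralizer_iff.2 fun r hr => ?_)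
    have hle : ⁅Q, Q⁆ ≤ centralizer ({s} : Set G) := by
      rw [Subgroup.commutator_le]
      intro a ha c hc
      exact mem_centralizer_singleton_iff.2 (commutatorElement_eq_one_iff_commute.1
        (T.classTwo a (B.le ha) c (B.le hc) s hs)).eq
    exact mem_centralizer_singleton_iff.1 (hle hr)
  show ⁅Cfsg.iterCommutator Q ⊤ 1, (⊤ : Subgroup G)⁆ ≤ _
  refine (Subgroup.commutator_mono h1 le_rfl).trans (comm_sup_le (S := ⊤) le_top le_top
    (fun g _ c hc => hVn.conj_mem c hc g) (Subgroup.commutator_le_left VV ⊤) ?_)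
  rw [Subgroup.commutator_le]
  intro r hr g hg
  rw [comm_one (mem_centralizer_iff.1 (hC.ge (mem_top g)) r hr)]
  exact one_mem _

end TypeOne

namespace Plane

variable {q : ℕ} {g₀ : G} {A₀ A₁ L₀ L₁ N : Subgroup G}
  (P : Plane p q Q (cjm g₀ S) A₀ A₁ L₀ L₁ N) (B : Base p S Q M) (hg₀ : g₀ ∉ M) (hA : A₁ ≤ S)
  (hAQ : ∃ a ∈ A₁, a ∉ Q) (hfix : ∀ s ∈ S, ∀ v ∈ L₁, ⁅s, v⁆ ∈ N)
include P B hg₀ hA hAQ hfix

theorem mem_L1_of_fixed {z : G} (hz : z ∈ L₀ ⊔ L₁) (hfz : ∀ a ∈ A₁, ⁅a, z⁆ ∈ N) : z ∈ L₁ := by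
  haveI := P.normalN
  obtain ⟨u, hu, v, hv, rfl⟩ := P.split hz
  obtain ⟨a, ha, haQ⟩ := hAQ
  have huN : u ∈ N := by
    by_contra hn
    refine P.moved a ha haQ u hu hn ?_
    have h := hfz a ha
    rw [comm_right_mul] at h
    exact (N.mul_mem_cancel_right (P.normalN.conj_mem _ (P.fix₁ a ha v hv) u)).1 h
  exact mul_mem (P.le₁ huN) hv

theorem fixed_all {z : G} (hz : z ∈ L₀ ⊔ L₁) (hfz : ∀ g : G, ⁅g, z⁆ ∈ N) : z ∈ N := by
  haveI := P.normalN
  have h₁ := P.mem_L1_of_fixed B hg₀ hA hAQ hfix hz fun a _ => hfz a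
  have h₂ := P.mem_L1_of_fixed B hg₀ hA hAQ hfix (z := g₀⁻¹ * z * g₀)
    (by simpa using P.normalW.conj_mem z hz g₀⁻¹) fun a _ => by
    have h := P.normalN.conj_mem _ (hfz (g₀ * a * g₀⁻¹)) g₀⁻¹
    convert h using 1
    simp [commutatorElement_def, mul_assoc]
  refine P.inter ⟨?_, h₁⟩
  obtain ⟨u, hu, v, hv, e⟩ := P.split hz
  obtain ⟨a, ha, haQ⟩ := hAQ
  -- the conjugate of the right line is the left line
  have hle : cjm g₀⁻¹ L₀ ≤ L₁ := by
    rintro _ ⟨x, hx, rfl⟩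
    refine P.mem_L1_of_fixed B hg₀ hA ⟨a, ha, haQ⟩ hfix (P.normalW.conj_mem x (mem_sup_left hx) g₀⁻¹)
      fun b hb => ?_
    have h := P.normalN.conj_mem _ (P.fix₀ (g₀ * b * g₀⁻¹) ⟨b, hA hb, rfl⟩ x hx) g₀⁻¹
    convert h using 1
    simp [commutatorElement_def, mul_assoc]
  have heq : cjm g₀⁻¹ L₀ = L₁ := by
    refine Subgroup.eq_of_le_of_card_ge hle ?_
    rw [Subgroup.card_map_of_injective (MulAut.conj g₀⁻¹).injective,
      ← Subgroup.card_mul_index (N.subgroupOf L₁), ← Subgroup.card_mul_index (N.subgroupOf L₀),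
      Nat.card_congr (Subgroup.subgroupOfEquivOfLe P.le₁).toEquiv,
      Nat.card_congr (Subgroup.subgroupOfEquivOfLe P.le₀).toEquiv]
    exact Nat.mul_le_mul_left _ (le_of_eq (P.card₁.trans P.card₀.symm))
  rw [← heq] at h₂
  obtain ⟨x, hx, e2⟩ := h₂
  have : x = z := (MulAut.conj g₀⁻¹).injective (e2.trans (by simp))
  exact this ▸ hx

theorem L0_eq : L₀ = cjm g₀ L₁ := by
  have hle : cjm g₀⁻¹ L₀ ≤ L₁ := by
    rintro _ ⟨x, hx, rfl⟩
    refine P.mem_L1_of_fixed B hg₀ hA hAQ hfix (P.normalW.conj_mem x (mem_sup_left hx) g₀⁻¹)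
      fun b hb => ?_
    have h := P.normalN.conj_mem _ (P.fix₀ (g₀ * b * g₀⁻¹) ⟨b, hA hb, rfl⟩ x hx) g₀⁻¹
    convert h using 1
    simp [commutatorElement_def, mul_assoc]
  refine Subgroup.eq_of_le_of_card_ge (fun x hx => mem_cjm.2 (hle ⟨x, hx, by simp⟩)) ?_
  rw [Subgroup.card_map_of_injective (MulAut.conj g₀).injective,
    ← Subgroup.card_mul_index (N.subgroupOf L₁), ← Subgroup.card_mul_index (N.subgroupOf L₀),
    Nat.card_congr (Subgroup.subgroupOfEquivOfLe P.le₁).toEquiv,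
    Nat.card_congr (Subgroup.subgroupOfEquivOfLe P.le₀).toEquiv]
  exact Nat.mul_le_mul_left _ (le_of_eq (P.card₁.trans P.card₀.symm))

theorem max_stab {g v : G} (hg : g ∈ M) (hv : v ∈ L₁) : g * v * g⁻¹ ∈ L₁ := by
  haveI := P.normalN
  obtain ⟨u, hu, w, hw, hz⟩ := P.split (P.normalW.conj_mem v (mem_sup_right hv) g)
  by_cases huN : u ∈ N
  · rw [hz]; exact mul_mem (P.le₁ huN) hw
  exfalso
  obtain ⟨b, hb, hbw⟩ := exists_disp (K := A₁) (Q := Q) (L := L₁) (N := N) u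
    (fun s hs => P.up s hs u hu)
    (fun s hs hd => by by_contra hsQ; exact P.moved s hs hsQ u hu huN hd)
    (by rw [P.card₁]; exact P.big) hw
  set π := QuotientGroup.mk' N
  have hπz : π (g * v * g⁻¹) = π (b * u * b⁻¹) := by
    have h1 : π ⁅b, u⁆ = π w := QuotientGroup.eq.2 hbw
    have hc : π u * π w = π w * π u := by
      have h : π ⁅u, w⁆ = 1 :=
        (QuotientGroup.eq_one_iff _).2 (P.comm u (mem_sup_left hu) w (mem_sup_right hw))
      rw [map_commutatorElement] at h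
      exact commutatorElement_eq_one_iff_commute.1 h
    rw [show b * u * b⁻¹ = ⁅b, u⁆ * u by rw [commutatorElement_def, inv_mul_cancel_right], hz,
      map_mul π ⁅b, u⁆, map_mul π u, h1, hc]
  have hM : g⁻¹ * (b * g₀) ∉ M := fun h => hg₀ (by
    have := M.mul_mem (M.inv_mem (B.pu.le_max (hA hb))) (M.mul_mem hg h)
    simpa [mul_assoc] using this)
  have hgen := congrArg (cjm g) (B.gen_sup hM)
  simp only [cjm, Subgroup.map_sup] at hgen
  rw [Subgroup.map_top_of_surjective (MulAut.conj g).toMonoidHom (MulAut.conj g).surjective,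
    Subgroup.map_map] at hgen
  set z := g * v * g⁻¹ with hzdef
  set H := moveStab (⊤ : Subgroup G) N (fun x _ y hy => P.normalN.conj_mem y hy x) z
  have htop : (⊤ : Subgroup G) ≤ H := by
    rw [← hgen]
    refine sup_le ?_ ?_
    · rintro _ ⟨s, hs, rfl⟩
      refine ⟨mem_top _, ?_⟩
      have h := P.normalN.conj_mem _ (hfix s hs v hv) g
      convert h using 1
      simp [hzdef, commutatorElement_def, mul_assoc]
    · rintro _ ⟨s, hs, rfl⟩
      refine ⟨mem_top _, ?_⟩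
      set t := (MulAut.conj g).toMonoidHom.comp (MulAut.conj (g⁻¹ * (b * g₀))).toMonoidHom s with ht
      have ht' : t = b * (g₀ * s * g₀⁻¹) * b⁻¹ := by rw [ht]; simp [mul_assoc]
      rw [← QuotientGroup.eq_one_iff]
      show π ⁅t, z⁆ = 1
      rw [map_commutatorElement, hπz, ← map_commutatorElement, ht', conj_commutator]
      exact (QuotientGroup.eq_one_iff _).2
        (P.normalN.conj_mem _ (P.fix₀ (g₀ * s * g₀⁻¹) ⟨s, hs, rfl⟩ u hu) b)
  have hall : ∀ x : G, ⁅x, z⁆ ∈ N := fun x => (htop (mem_top x)).2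
  have h0 := P.fixed_all B hg₀ hA hAQ hfix (P.normalW.conj_mem v (mem_sup_right hv) g) hall
  refine huN ?_
  have h1 : π (b * u * b⁻¹) = 1 := by rw [← hπz]; exact (QuotientGroup.eq_one_iff _).2 h0
  have h2 := P.normalN.conj_mem _ ((QuotientGroup.eq_one_iff _).1 h1) b⁻¹
  simpa [mul_assoc] using h2

theorem normal_le_max {K : Subgroup G}
    (htriv : ∀ c ∈ K, ∀ x ∈ L₀ ⊔ L₁, ⁅c, x⁆ ∈ N) (hne : ¬ L₁ ≤ N) : K ≤ M := by
  haveI := P.normalN
  intro c hc
  by_contra hcM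
  obtain ⟨v, hv, hvN⟩ := SetLike.not_le_iff_exists.1 hne
  refine hvN (P.fixed_all B hg₀ hA hAQ hfix (mem_sup_right hv) fun g => ?_)
  set H := moveStab (⊤ : Subgroup G) N (fun x _ y hy => P.normalN.conj_mem y hy x) v
  have htop : (⊤ : Subgroup G) ≤ H := by
    rw [← B.gen_sup hcM]
    refine sup_le (fun s hs => ⟨mem_top _, hfix s hs v hv⟩) ?_
    rintro _ ⟨s, hs, rfl⟩
    refine ⟨mem_top _, ?_⟩
    show ⁅c * s * c⁻¹, v⁆ ∈ N
    rw [comm_conj_left]
    refine P.normalN.conj_mem _ ?_ c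
    have hd : ⁅c⁻¹, v⁆ ∈ N := htriv _ (K.inv_mem hc) v (mem_sup_right hv)
    rw [show c⁻¹ * v * c = ⁅c⁻¹, v⁆ * v by simp [commutatorElement_def], comm_right_mul]
    refine mul_mem ?_ (P.normalN.conj_mem _ (hfix s hs v hv) _)
    rw [commutatorElement_def]
    exact mul_mem (P.normalN.conj_mem _ hd s) (inv_mem hd)
  exact (htop (mem_top g)).2

theorem commutes_mod {K : Subgroup G} (hK : K.Normal) (hKM : K ≤ M) {c b x : G} (hc : c ∈ K)
    (hb : b ∈ A₁) (hx : x ∈ L₀ ⊔ L₁) : ⁅b⁻¹ * (c * b * c⁻¹), x⁆ ∈ N := by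
  haveI := P.normalN
  have h₁ : ∀ d ∈ K, ∀ v ∈ L₁, d * v * d⁻¹ ∈ L₁ := fun d hd v hv =>
    P.max_stab B hg₀ hA hAQ hfix (hKM hd) hv
  have h₀ : ∀ d ∈ K, ∀ u ∈ L₀, d * u * d⁻¹ ∈ L₀ := fun d hd u hu => by
    rw [P.L0_eq B hg₀ hA hAQ hfix] at hu ⊢
    obtain ⟨v, hv, rfl⟩ := hu
    refine ⟨(g₀⁻¹ * d * g₀) * v * (g₀⁻¹ * d * g₀)⁻¹,
      h₁ _ (by simpa using hK.conj_mem d hd g₀⁻¹) v hv, ?_⟩
    simp [mul_assoc]
  set k := b⁻¹ * (c * b * c⁻¹) with hk
  have hL₁ : ∀ v ∈ L₁, ⁅k, v⁆ ∈ N := fun v hv => by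
    rw [hk, comm_left_mul]
    refine mul_mem (P.normalN.conj_mem _ ?_ _) (P.fix₁ _ (A₁.inv_mem hb) v hv)
    rw [comm_conj_left]
    exact P.normalN.conj_mem _ (P.fix₁ b hb _ (by simpa using h₁ c⁻¹ (K.inv_mem hc) v hv)) c
  have hL₀ : ∀ u ∈ L₀, ⁅k, u⁆ ∈ N := fun u hu => by
    set u₀ := c⁻¹ * u * c with hu₀
    have hu₀L : u₀ ∈ L₀ := by simpa [hu₀] using h₀ c⁻¹ (K.inv_mem hc) u hu
    set d := b⁻¹ * c * b with hd
    have hdK : d ∈ K := by simpa [hd] using hK.conj_mem c hc b⁻¹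
    set u₂ := d * u₀ * d⁻¹ with hu₂
    have hu₂L : u₂ ∈ L₀ := h₀ d hdK u₀ hu₀L
    have e : c * b * c⁻¹ * u * (c * b * c⁻¹)⁻¹ = b * u₂ * b⁻¹ := by
      rw [hu₂, hd, hu₀]; group
    -- compare the components of the two expressions
    have h3 : ⁅c * b * c⁻¹, u⁆ ∈ L₁ := by
      rw [comm_conj_left]
      exact h₁ c hc _ (P.up b hb u₀ hu₀L)
    have h5 : u₂ * u⁻¹ ∈ N := by
      refine P.inter ⟨L₀.mul_mem hu₂L (L₀.inv_mem hu), ?_⟩
      have e2 : u₂ * u⁻¹ = ⁅b, u₂⁆⁻¹ * ⁅c * b * c⁻¹, u⁆ := by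
        rw [commutatorElement_def (c * b * c⁻¹), e, commutatorElement_def]; group
      rw [e2]
      exact L₁.mul_mem (L₁.inv_mem (P.up b hb u₂ hu₂L)) h3
    have e3 : ⁅k, u⁆ = u₂ * u⁻¹ := by
      rw [commutatorElement_def, hk]
      calc b⁻¹ * (c * b * c⁻¹) * u * (b⁻¹ * (c * b * c⁻¹))⁻¹ * u⁻¹
          = b⁻¹ * (c * b * c⁻¹ * u * (c * b * c⁻¹)⁻¹) * b * u⁻¹ := by group
        _ = _ := by rw [e]; group
    rw [e3]; exact h5
  obtain ⟨u, hu, v, hv, rfl⟩ := P.split hx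
  rw [comm_right_mul]
  exact mul_mem (hL₀ u hu) (P.normalN.conj_mem _ (hL₁ v hv) u)

theorem irreducible {U : Subgroup G} (hU : U.Normal) (hNU : N ≤ U) (hUW : U ≤ L₀ ⊔ L₁) :
    U = N ∨ U = L₀ ⊔ L₁ := by
  haveI := P.normalN
  by_cases h : U ≤ N
  · exact Or.inl (le_antisymm h hNU)
  refine Or.inr (le_antisymm hUW ?_)
  obtain ⟨w, hw, hwN⟩ := SetLike.not_le_iff_exists.1 h
  obtain ⟨a, ha, haQ⟩ := hAQ
  have hv : ∃ v ∈ L₁, v ∈ U ∧ v ∉ N := by
    obtain ⟨u, hu, v, hv, rfl⟩ := P.split (hUW hw)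
    by_cases huN : u ∈ N
    · refine ⟨v, hv, ?_, fun hvN => hwN (mul_mem huN hvN)⟩
      exact (U.mul_mem_cancel_left (hNU huN)).1 hw
    · refine ⟨⁅a, u⁆, P.up a ha u hu, ?_, P.moved a ha haQ u hu huN⟩
      have h1 : ⁅a, u * v⁆ ∈ U := by
        rw [commutatorElement_def]; exact mul_mem (hU.conj_mem _ hw a) (inv_mem hw)
      rw [comm_right_mul] at h1
      exact (U.mul_mem_cancel_right (hNU (P.normalN.conj_mem _ (P.fix₁ a ha v hv) u))).1 h1
  obtain ⟨v, hvL, hvU, hvN⟩ := hv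
  have hL0eq := P.L0_eq B hg₀ hA ⟨a, ha, haQ⟩ hfix
  have hu : g₀ * v * g₀⁻¹ ∈ L₀ := hL0eq ▸ ⟨v, hvL, rfl⟩
  have huN : g₀ * v * g₀⁻¹ ∉ N := fun hn => hvN (by
    simpa [mul_assoc] using P.normalN.conj_mem _ hn g₀⁻¹)
  have hL₁U : L₁ ≤ U := by
    intro l hl
    obtain ⟨s, hs, hd⟩ := exists_disp (K := A₁) (Q := Q) (L := L₁) (N := N) (g₀ * v * g₀⁻¹)
      (fun s hs => P.up s hs _ hu)
      (fun s hs hd => by by_contra hsQ; exact P.moved s hs hsQ _ hu huN hd)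
      (by rw [P.card₁]; exact P.big) hl
    have hsU : ⁅s, g₀ * v * g₀⁻¹⁆ ∈ U := by
      rw [commutatorElement_def]
      exact mul_mem (hU.conj_mem _ (hU.conj_mem v hvU g₀) s) (inv_mem (hU.conj_mem v hvU g₀))
    have h1 := mul_mem hsU (hNU hd)
    rwa [mul_inv_cancel_left] at h1
  refine sup_le ?_ hL₁U
  rw [hL0eq]
  rintro _ ⟨x, hx, rfl⟩
  exact hU.conj_mem x (hL₁U hx) g₀

end Plane

namespace TwoLocal

variable {Vl Vr Al Ar : Subgroup G} {g₀ : G} (T : TwoLocal p S Q M g₀ Vl Vr Al Ar)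
include T

local notation "VV" => omZ p Q
local notation "FF" => omZ p Q ⊓ centralizer ((⊤ : Subgroup G) : Set G)
local notation "ZL" => omZ p Q ⊓ centralizer ((cjm g₀ S : Subgroup G) : Set G)
local notation "ZR" => omZ p Q ⊓ centralizer (S : Set G)
local notation "WW" => (omZ p Q ⊔ Vl) ⊔ (omZ p Q ⊔ Vr)
local notation "DD" => Q ⊓ centralizer ((Vl ⊔ Vr : Subgroup G) : Set G)

theorem exists_ar : ∃ a ∈ Ar, a ∉ Q := by
  by_contra h
  push Not at h
  exact T.base.proper (T.supr ▸ sup_le le_rfl h)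

theorem fixE : ∀ s ∈ S, ∀ v ∈ ZR, ⁅s, v⁆ ∈ FF := fun s hs v hv => by
  rw [comm_one (mem_centralizer_iff.1 hv.2 s hs)]; exact one_mem _

theorem V_le_W : VV ≤ WW := le_sup_left.trans le_sup_left

theorem W_exp (hp2 : p ≠ 2) {x : G} (hx : x ∈ WW) : x ^ p = 1 := by
  let H : Subgroup G :=
    { carrier := {x | x ∈ WW ∧ x ^ p = 1}
      one_mem' := ⟨one_mem _, one_pow _⟩
      mul_mem' := fun {g h} ⟨hg, hg'⟩ ⟨hh, hh'⟩ => ⟨mul_mem hg hh, by
        have hr := T.comm_W hh (T.W_le_Q hg)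
        exact pow_eq_one_of_central hp.out hp2 rfl (mem_centralizer_iff.1 hr.2 g (mem_top g)).symm
          (mem_centralizer_iff.1 hr.2 h (mem_top h)).symm hr.1.2.1 hg' hh'⟩
      inv_mem' := fun {g} ⟨hg, hg'⟩ => ⟨inv_mem hg, by rw [inv_pow, hg', inv_one]⟩ }
  have hle : WW ≤ H := sup_le
    (sup_le (fun u hu => ⟨mem_sup_left (mem_sup_left hu), hu.2.1⟩)
      (fun u hu => ⟨mem_sup_left (mem_sup_right hu), T.expl u hu⟩))
    (sup_le (fun u hu => ⟨mem_sup_left (mem_sup_left hu), hu.2.1⟩)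
      (fun u hu => ⟨mem_sup_right (mem_sup_right hu), T.expr u hu⟩))
  exact (hle hx).2

theorem D_comm_W {d w : G} (hd : d ∈ DD) (hw : w ∈ WW) : d * w = w * d := by
  have hle : WW ≤ centralizer ({d} : Set G) := by
    refine sup_le (sup_le ?_ ?_) (sup_le ?_ ?_) <;> intro u hu <;> rw [mem_centralizer_singleton_iff]
    · exact (hu.2.2 d hd.1).symm
    · exact mem_centralizer_iff.1 (mem_centralizer_sup.1 hd.2).1 u hu
    · exact (hu.2.2 d hd.1).symm
    · exact mem_centralizer_iff.1 (mem_centralizer_sup.1 hd.2).2 u hu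
  exact (mem_centralizer_singleton_iff.1 (hle hw)).symm

theorem D_normal : (DD).Normal := by
  refine ⟨fun d hd g => ⟨T.base.conj_mem_Q hd.1 g, mem_centralizer_iff.2 fun w hw => ?_⟩⟩
  have hle : Vl ⊔ Vr ≤ WW := sup_le (le_sup_right.trans le_sup_left) (le_sup_right.trans le_sup_right)
  have hw' : g⁻¹ * w * g ∈ WW := by simpa using T.W_normal.conj_mem w (hle hw) g⁻¹
  have h := T.D_comm_W hd hw'
  calc w * (g * d * g⁻¹) = g * ((g⁻¹ * w * g) * d) * g⁻¹ := by group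
    _ = g * (d * (g⁻¹ * w * g)) * g⁻¹ := by rw [h]
    _ = _ := by group

theorem Q_le_WD : Q ≤ WW ⊔ DD := T.qsplit.trans (sup_le (sup_le
  ((le_sup_right.trans le_sup_left).trans le_sup_left) ((le_sup_right.trans le_sup_right).trans le_sup_left))
  le_sup_right)

theorem ar_comm_Q {a y : G} (ha : a ∈ Ar) (hy : y ∈ Q) : ⁅a, y⁆ ∈ WW := by
  haveI hWn := T.W_normal
  obtain ⟨w, hw, d, hd, rfl⟩ :=
    mem_sup_mul (fun a _ => by rw [normalizer_eq_top]; exact mem_top a) (T.Q_le_WD hy)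
  rw [comm_right_mul]
  refine mul_mem ?_ (hWn.conj_mem _ (T.V_le_W (T.dr a ha d hd)) w)
  rw [commutatorElement_def]
  exact mul_mem (hWn.conj_mem w hw a) (inv_mem hw)


end TwoLocal

end Cfsg.Agent.PushUp
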