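import Cfsg.Agent.PushUp.Struct

/-!
The structure at critical distance two.
-/

set_option autoImplicit false
set_option linter.style.haveILetI false
set_option linter.unusedSectionVars false

open Subgroup
open scoped commutatorElement

namespace Cfsg.Agent.PushUp

open LAE62

universe u

variable {G : Type u} [Group G] [Finite G] {p : ℕ} [hp : Fact p.Prime] {S Q M : Subgroup G}

namespace TwoLocal

variable {Vl Vr Al Ar : Subgroup G} {g₀ : G} (T : TwoLocal p S Q M g₀ Vl Vr Al Ar)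
include T

local notation "VV" => omZ p Q
local notation "FF" => omZ p Q ⊓ centralizer ((⊤ : Subgroup G) : Set G)
local notation "ZL" => omZ p Q ⊓ centralizer ((cjm g₀ S : Subgroup G) : Set G)
local notation "ZR" => omZ p Q ⊓ centralizer (S : Set G)
local notation "WW" => (omZ p Q ⊔ Vl) ⊔ (omZ p Q ⊔ Vr)
local notation "DD" => Q ⊓ centralizer ((Vl ⊔ Vr : Subgroup G) : Set G)

theorem exists_double : ∃ a ∈ Ar, ∃ u ∈ WW, ⁅a, ⁅a, u⁆⁆ ∈ VV ∧ ⁅a, ⁅a, u⁆⁆ ∉ FF := by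
  haveI hVn := omZ_normal p T.base.normal
  obtain ⟨a, ha, u, hu, hne⟩ := T.ne
  have hFr : FF ≤ Vr := fun e he => T.Zr (T.F_le_ZR he)
  have haQ : a ∉ Q := fun h => hne (hFr (by simpa using Subgroup.inv_mem (FF) (T.comml u hu a h)))
  obtain ⟨e, he, v, hv, hx⟩ := mem_sup_mul
    (fun a _ => by rw [normalizer_eq_top]; exact mem_top a) (T.xr a ha u hu)
  have hxe : ⁅a, ⁅a, u⁆⁆ = ⁅a, e⁆ := by
    rw [hx, comm_right_mul, comm_one (T.arvr a ha v hv), mul_one, mul_inv_cancel, mul_one]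
  have hV : ⁅a, e⁆ ∈ VV := by
    rw [commutatorElement_def]; exact mul_mem (hVn.conj_mem e he a) ((omZ p Q).inv_mem he)
  refine ⟨a, ha, u, mem_sup_left (mem_sup_right hu), hxe ▸ hV, fun h => hne ?_⟩
  rw [hxe] at h
  obtain ⟨z₀, hz₀, z₁, hz₁, rfl⟩ := T.planeE.split (T.sup_E.symm ▸ he : e ∈ ZL ⊔ ZR)
  have e1 : ⁅a, z₀ * z₁⁆ = ⁅a, z₀⁆ := by
    rw [comm_right_mul, comm_one (mem_centralizer_iff.1 hz₁.2 a (T.ar_le ha)), mul_one, mul_inv_cancel,
      mul_one]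
  rw [e1] at h
  have hz₀F : z₀ ∈ FF := by
    by_contra hn
    exact T.planeE.moved a ha haQ z₀ hz₀ hn h
  rw [hx]
  exact mul_mem (mul_mem (hFr hz₀F) (T.Zr hz₁)) hv

theorem S_fix_M : ∀ s ∈ S, ∀ v ∈ VV ⊔ Vr, ⁅s, v⁆ ∈ VV := fun _ hs _ hv => T.fix_r hs hv

theorem ZR_not_le : ¬ ZR ≤ FF := fun h => by
  obtain ⟨u, hu, huF⟩ := T.exists_ZL
  obtain ⟨a, ha, haQ⟩ := T.exists_ar
  exact T.planeE.moved a ha haQ u hu huF (h (T.planeE.up a ha u hu))

theorem Vr_not_le : ¬ VV ⊔ Vr ≤ VV := fun h => by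
  obtain ⟨a, ha, u, hu, hne⟩ := T.ne
  obtain ⟨b, hb, hbQ⟩ := T.exists_ar
  have hFr : FF ≤ Vr := fun e he => T.Zr (T.F_le_ZR he)
  have huV : u ∉ VV := fun huV => hne (T.Zr (T.quad_r (T.ar_le ha) huV))
  exact T.planeM.moved b hb hbQ u (mem_sup_right hu) huV (h (T.planeM.up b hb u (mem_sup_right hu)))

theorem comm_W_W {a u : G} (ha : a ∈ Ar) (hu : u ∈ WW) : ⁅a, u⁆ ∈ WW := by
  rw [commutatorElement_def]; exact mul_mem (T.W_normal.conj_mem u hu a) ((WW).inv_mem hu)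

theorem double_mem {a b u : G} (ha : a ∈ Ar) (hb : b ∈ Ar) (hu : u ∈ WW) : ⁅b, ⁅a, u⁆⁆ ∈ VV := by
  obtain ⟨x, hx, y, hy, rfl⟩ := T.planeM.split hu
  refine T.planeM.fix₁ b hb _ ?_
  rw [comm_right_mul]
  exact mul_mem (T.planeM.up a ha x hx)
    (mem_sup_left ((omZ_normal p T.base.normal).conj_mem _ (T.planeM.fix₁ a ha y hy) x))

/-- The module kernels. -/
theorem kernels (hp2 : p ≠ 2) :
    (∀ g, (∀ e ∈ VV, ⁅g, e⁆ ∈ FF) ↔ g ∈ Q) ∧ (∀ g, (∀ w ∈ WW, ⁅g, w⁆ ∈ VV) ↔ g ∈ Q) := by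
  classical
  have B := T.base
  haveI hFn := T.F_normal
  haveI := B.normal
  haveI hVn := omZ_normal p B.normal
  haveI hWn := T.W_normal
  have hAQ := T.exists_ar
  set π := QuotientGroup.mk' (FF)
  set KE := secKer (VV) (FF) with hKE
  set KM := secKer (WW) (VV) with hKM
  have hKEn : KE.Normal := secKer_normal hVn
  have hKMn : KM.Normal := secKer_normal hWn
  have hKEM : KE ≤ M := T.planeE.normal_le_max B T.notMem T.ar_le hAQ T.fixE
    (fun c hc x hx => hc x (T.sup_E ▸ hx)) T.ZR_not_le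
  have hKMM : KM ≤ M := T.planeM.normal_le_max B T.notMem T.ar_le hAQ T.S_fix_M
    (fun c hc x hx => hc x hx) T.Vr_not_le
  have hWW : ∀ x ∈ WW, ∀ y ∈ WW, Commute (π x) (π y) := fun x hx y hy => by
    have h : π ⁅x, y⁆ = 1 := (QuotientGroup.eq_one_iff _).2 (T.comm_W hx (T.W_le_Q hy))
    rw [map_commutatorElement] at h
    exact commutatorElement_eq_one_iff_commute.1 h
  have hπV : ∀ {x y : G}, y⁻¹ * x ∈ FF → π x = π y := fun h => (QuotientGroup.eq.2 h).symm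
  -- the double displacement
  let Φ : G → G → G → G ⧸ FF := fun a b x => π ⁅b, ⁅a, x⁆⁆
  have Φmul : ∀ a ∈ Ar, ∀ b ∈ Ar, ∀ x ∈ WW, ∀ y ∈ WW, Φ a b (x * y) = Φ a b x * Φ a b y := by
    intro a ha b hb x hx y hy
    have h1 : π ⁅a, x * y⁆ = π (⁅a, x⁆ * ⁅a, y⁆) := by
      rw [comm_right_mul, map_mul, map_mul π ⁅a, x⁆, map_mul, map_mul, map_inv,
        (hWW x hx _ (T.comm_W_W ha hy)).eq, mul_inv_cancel_right]
    show π ⁅b, ⁅a, x * y⁆⁆ = _
    rw [map_commutatorElement, h1, ← map_commutatorElement, comm_right_mul, map_mul, map_mul, map_mul,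
      map_inv, (hWW _ (T.comm_W_W ha hx) _ (T.V_le_W (T.double_mem ha hb hy))).eq, mul_inv_cancel_right]
  have Φk : ∀ a ∈ Ar, ∀ b ∈ Ar, ∀ c : G, (∀ x ∈ WW, ⁅a⁻¹ * (c * a * c⁻¹), x⁆ ∈ FF) →
      (∀ x ∈ WW, ⁅b⁻¹ * (c * b * c⁻¹), x⁆ ∈ FF) → ∀ x ∈ WW,
        π (c * ⁅b, ⁅a, x⁆⁆ * c⁻¹) = Φ a b (c * x * c⁻¹) := by
    intro a ha b hb c hka hkb x hx
    have key : ∀ d : G, (∀ x ∈ WW, ⁅d⁻¹ * (c * d * c⁻¹), x⁆ ∈ FF) → ∀ y ∈ WW,
        π ⁅c * d * c⁻¹, y⁆ = π ⁅d, y⁆ := by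
      intro d hd y hy
      refine hπV ?_
      have e : ⁅d, y⁆⁻¹ * ⁅c * d * c⁻¹, y⁆ = (⁅d, y⁆⁻¹ * d) * ⁅d⁻¹ * (c * d * c⁻¹), y⁆ * (⁅d, y⁆⁻¹ * d)⁻¹ := by
        simp only [commutatorElement_def]; group
      rw [e]
      exact hFn.conj_mem _ (hd y hy) _
    have e : c * ⁅b, ⁅a, x⁆⁆ * c⁻¹ = ⁅c * b * c⁻¹, ⁅c * a * c⁻¹, c * x * c⁻¹⁆⁆ := by
      rw [conj_commutator, conj_commutator]
    have hx' : c * x * c⁻¹ ∈ WW := hWn.conj_mem x hx c
    have hy : ⁅c * a * c⁻¹, c * x * c⁻¹⁆ ∈ WW := by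
      rw [conj_commutator]; exact hWn.conj_mem _ (T.comm_W_W ha hx) c
    show π (c * ⁅b, ⁅a, x⁆⁆ * c⁻¹) = π ⁅b, ⁅a, c * x * c⁻¹⁆⁆
    rw [e, key b hkb _ hy, map_commutatorElement π b, key a hka _ hx', ← map_commutatorElement]
  -- `K_E` acts trivially on the upper layer
  have hEM : ∀ c ∈ KE, ∀ x ∈ WW, ⁅c, x⁆ ∈ VV := by
    let C : Subgroup G :=
      { carrier := {w | w ∈ WW ∧ ∀ g : G, ∀ a ∈ Ar, ∀ b ∈ Ar, Φ a b (g * w * g⁻¹) = 1}
        one_mem' := ⟨one_mem _, fun g a _ b _ => by simp [Φ, commutatorElement_def]⟩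
        mul_mem' := fun {x y} ⟨hx, hx'⟩ ⟨hy, hy'⟩ => ⟨mul_mem hx hy, fun g a ha b hb => by
          rw [show g * (x * y) * g⁻¹ = (g * x * g⁻¹) * (g * y * g⁻¹) by group,
            Φmul a ha b hb _ (hWn.conj_mem x hx g) _ (hWn.conj_mem y hy g), hx' g a ha b hb,
            hy' g a ha b hb, one_mul]⟩
        inv_mem' := fun {x} ⟨hx, hx'⟩ => ⟨inv_mem hx, fun g a ha b hb => by
          have h := Φmul a ha b hb _ (hWn.conj_mem x hx g) _ (hWn.conj_mem _ (inv_mem hx) g)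
          rw [hx' g a ha b hb, one_mul, show g * x * g⁻¹ * (g * x⁻¹ * g⁻¹) = 1 by group] at h
          rw [← h]; simp [Φ, commutatorElement_def]⟩ }
    have hCn : C.Normal := ⟨fun w ⟨hw, hw'⟩ h => ⟨hWn.conj_mem w hw h, fun g a ha b hb => by
      rw [show g * (h * w * h⁻¹) * g⁻¹ = (g * h) * w * (g * h)⁻¹ by group]
      exact hw' _ a ha b hb⟩⟩
    have hVC : VV ≤ C := fun e he => ⟨T.V_le_W he, fun g a ha b hb => by
      have h := T.quad_r (T.ar_le ha) (hVn.conj_mem e he g)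
      show π ⁅b, ⁅a, g * e * g⁻¹⁆⁆ = 1
      rw [comm_one (mem_centralizer_iff.1 h.2 b (T.ar_le hb)), map_one]⟩
    have hC : C = VV := by
      rcases T.planeM.irreducible B T.notMem T.ar_le hAQ T.S_fix_M hCn hVC (fun w hw => hw.1) with h | h
      · exact h
      · exfalso
        obtain ⟨a, ha, u, hu, -, hne⟩ := T.exists_double
        have h1 := (h.ge hu : u ∈ C).2 1 a ha a ha
        rw [one_mul, inv_one, mul_one] at h1
        exact hne ((QuotientGroup.eq_one_iff _).1 h1)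
    intro c hc x hx
    rw [← hC]
    refine ⟨by rw [commutatorElement_def]; exact mul_mem (hWn.conj_mem x hx c) (inv_mem hx),
      fun g a ha b hb => ?_⟩
    set c' := g * c * g⁻¹
    have hc' : c' ∈ KE := hKEn.conj_mem c hc g
    have hk : ∀ d ∈ Ar, ∀ y ∈ WW, ⁅d⁻¹ * (c' * d * c'⁻¹), y⁆ ∈ FF := fun d hd y hy => by
      refine T.central_of_layers (fun e he => ?_) (fun w hw =>
        T.planeM.commutes_mod B T.notMem T.ar_le hAQ T.S_fix_M hKEn hKEM hc' hd hw) hy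
      exact T.planeE.commutes_mod B T.notMem T.ar_le hAQ T.fixE hKEn hKEM hc' hd (T.sup_E.symm ▸ he)
    set x' := g * x * g⁻¹
    have hx' : x' ∈ WW := hWn.conj_mem x hx g
    have hΦ := Φk a ha b hb c' (hk a ha) (hk b hb) x' hx'
    have htriv : π (c' * ⁅b, ⁅a, x'⁆⁆ * c'⁻¹) = Φ a b x' := by
      refine hπV ?_
      have h := hc' _ (T.double_mem ha hb hx')
      have h2 := hFn.conj_mem _ h (⁅b, ⁅a, x'⁆⁆⁻¹)
      convert h2 using 1
      simp only [commutatorElement_def]; group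
    rw [show g * ⁅c, x⁆ * g⁻¹ = c' * x' * c'⁻¹ * x'⁻¹ by simp [c', x', commutatorElement_def, mul_assoc],
      Φmul a ha b hb _ (hWn.conj_mem x' hx' c') _ (inv_mem hx'), ← hΦ, htriv,
      ← Φmul a ha b hb _ hx' _ (inv_mem hx'), mul_inv_cancel]
    simp [Φ, commutatorElement_def]
  have hKES : ∀ s ∈ S, s ∈ KE → s ∈ Q := by
    intro s hs hk
    by_contra hsQ
    obtain ⟨q, hq, a, ha, rfl⟩ := mem_sup_mul (fun a _ => by rw [normalizer_eq_top]; exact mem_top a)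
      (T.supr.symm ▸ hs : s ∈ Q ⊔ Ar)
    have hqK : q ∈ KE := fun e he => by rw [comm_one (he.2.2 q hq)]; exact one_mem _
    have haK : a ∈ KE := (KE.mul_mem_cancel_left hqK).1 hk
    obtain ⟨u₀, hu₀, hu₀F⟩ := T.exists_ZL
    exact T.planeE.moved a ha (fun h => hsQ (mul_mem hq h)) u₀ hu₀ hu₀F (haK u₀ hu₀.1)
  have hKEQ : KE ≤ Q := by
    refine B.le_Q_of_kernel hKEn hKES fun c hc hco => ?_
    have hcW : ∀ x ∈ WW, c * x = x * c := by
      intro x hx
      have hr := T.central_of_layers hc (hEM c hc) hx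
      exact conj_eq_of_coprime hco rfl hr.1.2.1 (mem_centralizer_iff.1 hr.2 c (mem_top c))
    apply T.centQ
    refine mem_centralizer_iff.2 fun q hq => ?_
    have hr : ⁅c, q⁆ ∈ WW := by
      by_cases hcQ : c ∈ Q
      · have : c = 1 := by
          obtain ⟨i, hi⟩ := IsPGroup.iff_orderOf.1 (B.pgroup.to_le B.le) ⟨c, hcQ⟩
          rw [← Subgroup.orderOf_coe] at hi
          have hi' : orderOf c = p ^ i := hi
          exact orderOf_eq_one_iff.1
            (Nat.eq_one_of_dvd_coprimes (hco.pow_right i) dvd_rfl (dvd_of_eq hi'))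
        rw [this, commutatorElement_one_left]; exact one_mem _
      · obtain ⟨a, ha, haQ⟩ := hAQ
        have hWn' : (secKer Q (WW)).Normal := secKer_normal (W := Q) (N := WW) B.normal
        have haK : a ∈ secKer Q (WW) := fun y hy => T.ar_comm_Q ha hy
        have h := B.cover _ hWn' a (T.ar_le ha) haK haQ
        haveI := hWn'
        have h' : c ∈ secKer Q (WW) := mem_of_coprime_of_sup B.pgroup h hco
        exact h' q hq
    exact (conj_eq_of_coprime hco rfl (T.W_exp hp2 hr) (hcW _ hr)).symm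
  have hKMQ : KM ≤ Q := by
    have hk : ∀ c ∈ KM, ∀ d ∈ Ar, ∀ y ∈ WW, ⁅d⁻¹ * (c * d * c⁻¹), y⁆ ∈ FF := fun c hc d hd y hy => by
      have hQk : d⁻¹ * (c * d * c⁻¹) ∈ Q := hKEQ fun e he =>
        T.planeE.commutes_mod B T.notMem T.ar_le hAQ T.fixE hKMn hKMM hc hd (T.sup_E.symm ▸ he)
      simpa using Subgroup.inv_mem (FF) (T.comm_W hy hQk)
    let X' : Subgroup G :=
      { carrier := {e | e ∈ VV ∧ ∀ c ∈ KM, ⁅c, e⁆ ∈ FF}
        one_mem' := ⟨one_mem _, fun c _ => by simp [commutatorElement_def]⟩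
        mul_mem' := fun {x y} ⟨hx, hx'⟩ ⟨hy, hy'⟩ => ⟨mul_mem hx hy, fun c hc => by
          rw [comm_right_mul]; exact mul_mem (hx' c hc) (hFn.conj_mem _ (hy' c hc) x)⟩
        inv_mem' := fun {x} ⟨hx, hx'⟩ => ⟨inv_mem hx, fun c hc => by
          have e : ⁅c, x⁻¹⁆ = x⁻¹ * ⁅c, x⁆⁻¹ * x⁻¹⁻¹ := by simp only [commutatorElement_def]; group
          rw [e]; exact hFn.conj_mem _ (inv_mem (hx' c hc)) _⟩ }
    have hX'n : X'.Normal := ⟨fun e ⟨he, he'⟩ g => ⟨hVn.conj_mem e he g, fun c hc => by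
      have h := hFn.conj_mem _ (he' _ (by simpa using hKMn.conj_mem c hc g⁻¹)) g
      convert h using 1
      simp [commutatorElement_def, mul_assoc]⟩⟩
    have hFX : FF ≤ X' := fun e he => ⟨he.1, fun c _ => by
      rw [comm_one (mem_centralizer_iff.1 he.2 c (mem_top c))]; exact one_mem _⟩
    obtain ⟨a, ha, u, hu, heV, heF⟩ := T.exists_double
    have heX : ⁅a, ⁅a, u⁆⁆ ∈ X' := by
      refine ⟨heV, fun c hc => ?_⟩
      have h1 := Φk a ha a ha c (hk c hc a ha) (hk c hc a ha) u hu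
      have hcu : ⁅c, u⁆ ∈ VV := hc u hu
      have hV1 : Φ a a ⁅c, u⁆ = 1 := by
        have h := T.quad_r (T.ar_le ha) hcu
        show π ⁅a, ⁅a, ⁅c, u⁆⁆⁆ = 1
        rw [comm_one (mem_centralizer_iff.1 h.2 a (T.ar_le ha)), map_one]
      rw [show c * u * c⁻¹ = ⁅c, u⁆ * u by rw [commutatorElement_def, inv_mul_cancel_right],
        Φmul a ha a ha _ (T.V_le_W hcu) u hu, hV1, one_mul] at h1
      have h2 := QuotientGroup.eq.1 h1.symm
      have h3 := hFn.conj_mem _ h2 ⁅a, ⁅a, u⁆⁆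
      convert h3 using 1
      simp only [commutatorElement_def]; group
    rcases T.planeE.irreducible B T.notMem T.ar_le hAQ T.fixE hX'n hFX
        (fun e he => T.sup_E.symm ▸ he.1) with h | h
    · exact absurd (h.le heX) heF
    · exact fun c hc => hKEQ fun e he => ((h.ge (T.sup_E.symm ▸ he)) : e ∈ X').2 c hc
  refine ⟨fun g => ⟨fun hg => hKEQ hg, fun hg e he => ?_⟩, fun g => ⟨fun hg => hKMQ hg, fun hg w hw => ?_⟩⟩
  · rw [comm_one (he.2.2 g hg)]; exact one_mem _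
  · simpa using (omZ p Q).inv_mem (T.comm_W hw hg).1

theorem natSectionE (hp2 : p ≠ 2) (F : Type) [Field F] [Fintype F] (hF : Fintype.card F = Q.relIndex S) :
    NatSection F Q VV FF := by
  haveI := T.F_normal
  refine natSection_of_quadratic T.base F hF VV FF (omZ_normal p T.base.normal) inf_le_left
    (T.kernels hp2).1 (fun a ha c hc => T.planeE.comm a (T.sup_E.symm ▸ ha) c (T.sup_E.symm ▸ hc))
    (fun w hw => by rw [hw.2.1]; exact one_mem _)
    (fun w hw hf => T.planeE.fixed_all T.base T.notMem T.ar_le T.exists_ar T.fixE (T.sup_E.symm ▸ hw) hf)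
    (fun s hs t ht w hw => ?_) ZR T.F_le_ZR inf_le_left (relIndex_F_eq T.nat).le
    (fun z hz s hs => T.fixE s hs z hz)
  rw [comm_one (mem_centralizer_iff.1 (T.quad_r hs hw).2 t ht)]
  exact one_mem _

theorem natSectionM (hp2 : p ≠ 2) (F : Type) [Field F] [Fintype F] (hF : Fintype.card F = Q.relIndex S) :
    NatSection F Q WW VV := by
  have hVn := omZ_normal p T.base.normal
  haveI := hVn
  refine natSection_of_quadratic T.base F hF WW VV T.W_normal T.V_le_W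
    (T.kernels hp2).2 T.planeM.comm T.planeM.exp
    (fun w hw hf => T.planeM.fixed_all T.base T.notMem T.ar_le T.exists_ar T.S_fix_M hw hf)
    (fun s hs t ht w hw => ?_) (VV ⊔ Vr) le_sup_left le_sup_right ?_ (fun z hz s hs => T.fix_r hs hz)
  · have hs' := hs
    rw [← T.supr] at hs'
    obtain ⟨q, hq, a, ha, rfl⟩ := mem_sup_mul (fun a _ => by
      haveI := T.base.normal; rw [normalizer_eq_top]; exact mem_top a) hs'
    refine T.fix_r ht ?_
    rw [comm_left_mul]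
    obtain ⟨x, hx, y, hy, rfl⟩ := T.planeM.split hw
    have hA : ⁅a, x * y⁆ ∈ VV ⊔ Vr := by
      rw [comm_right_mul]
      exact mul_mem (T.planeM.up a ha x hx) (mem_sup_left (hVn.conj_mem _ (T.planeM.fix₁ a ha y hy) x))
    have hq1 : q * ⁅a, x * y⁆ * q⁻¹ ∈ VV ⊔ Vr := by
      have e : q * ⁅a, x * y⁆ * q⁻¹ = ⁅q, ⁅a, x * y⁆⁆ * ⁅a, x * y⁆ := by
        rw [commutatorElement_def q, inv_mul_cancel_right]
      rw [e]
      exact mul_mem (mem_sup_left (T := Vr) (T.fix_r (T.base.le hq) hA)) hA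
    refine mul_mem hq1 (mem_sup_left ?_)
    simpa using (omZ p Q).inv_mem (T.comm_W hw hq).1
  · have hn : VV ⊔ Vr ≤ normalizer ((VV ⊔ Vl : Subgroup G) : Set G) := fun y hy =>
      mem_normalizer_of_conj_mem fun x hx => by
        have h := mul_mem (mem_sup_left (T := Vl) (T.planeM.comm y (mem_sup_right hy) x (mem_sup_left hx))) hx
        simpa [commutatorElement_def] using h
    have h1 := card_sup_mul_inf (VV ⊔ Vl) (VV ⊔ Vr) hn
    have hi : (VV ⊔ Vl) ⊓ (VV ⊔ Vr) = VV := le_antisymm T.interlr (le_inf le_sup_left le_sup_left)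
    rw [hi, ← Subgroup.card_mul_index ((omZ p Q).subgroupOf (VV ⊔ Vl)),
      Nat.card_congr (Subgroup.subgroupOfEquivOfLe (le_sup_left (b := Vl))).toEquiv,
      ← Subgroup.card_mul_index ((VV ⊔ Vr).subgroupOf WW),
      Nat.card_congr (Subgroup.subgroupOfEquivOfLe (le_sup_right (a := VV ⊔ Vl))).toEquiv] at h1
    refine le_of_eq (Nat.eq_of_mul_eq_mul_left
      (Nat.mul_pos (Nat.card_pos (α := ↥(VV ⊔ Vr))) (Nat.card_pos (α := ↥(omZ p Q)))) ?_)
    have h3 := T.planeM.card₀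
    unfold Subgroup.relIndex at h3 ⊢
    rw [h3] at h1
    calc _ = Nat.card ↥(VV ⊔ Vr) * ((VV ⊔ Vr).subgroupOf WW).index * Nat.card ↥(omZ p Q) := by ring
      _ = _ := by rw [← h1]; ring

theorem ar_comm_D' {a r : G} (ha : a ∈ Ar) (hr : r ∈ ⁅DD, DD⁆) : a * r = r * a := by
  haveI := T.D_normal
  have hle : ⁅DD, DD⁆ ≤ centralizer ({a} : Set G) := by
    rw [Subgroup.commutator_le]
    intro d hd d' hd'
    rw [mem_centralizer_singleton_iff]
    have key : ∀ d ∈ DD, ∀ y ∈ Q, Commute ⁅a, d⁆ y := fun d hd y hy =>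
      ((T.dr a ha d hd).2.2 y hy).symm
    have e : a * ⁅d, d'⁆ * a⁻¹ = ⁅⁅a, d⁆ * d, ⁅a, d'⁆ * d'⁆ := by
      simp only [commutatorElement_def]; group
    have e2 : ⁅⁅a, d⁆ * d, ⁅a, d'⁆ * d'⁆ = ⁅d, d'⁆ := by
      have hc : ⁅d, ⁅a, d'⁆ * d'⁆ = ⁅d, d'⁆ := by
        rw [comm_right_mul, comm_one (key d' hd' d hd.1).eq.symm, one_mul,
          conj_fix (key d' hd' _ (by
            rw [commutatorElement_def]
            exact Q.mul_mem (Q.mul_mem (Q.mul_mem hd.1 hd'.1) (Q.inv_mem hd.1)) (Q.inv_mem hd'.1))).eq]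
      have hd'' : ⁅a, d'⁆ * d' ∈ Q := Q.mul_mem (omZ_le p Q (T.dr a ha d' hd')) hd'.1
      rw [comm_left_mul, hc, comm_one (key d hd _ hd'').eq, mul_one, conj_fix (key d hd _ (by
            rw [commutatorElement_def]
            exact Q.mul_mem (Q.mul_mem (Q.mul_mem hd.1 hd'.1) (Q.inv_mem hd.1)) (Q.inv_mem hd'.1))).eq]
    calc ⁅d, d'⁆ * a = (a * ⁅d, d'⁆ * a⁻¹) * a := by rw [e, e2]
      _ = a * ⁅d, d'⁆ := by group
  exact (mem_centralizer_singleton_iff.1 (hle hr)).symm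

theorem S_eq : S ≤ (WW ⊔ DD) ⊔ Ar := by
  rw [← T.supr]
  exact sup_le (T.Q_le_WD.trans le_sup_left) le_sup_right

theorem gamma_four (hd : ∀ K : Subgroup S, K ≠ ⊥ → K.Characteristic → ¬ (K.map S.subtype).Normal) :
    ⁅⁅⁅S, S⁆, S⁆, S⁆ = ⊥ := by
  have B := T.base
  haveI hDn := T.D_normal
  haveI hVn := omZ_normal p B.normal
  haveI hD1 : (⁅DD, DD⁆ : Subgroup G).Normal := Subgroup.commutator_normal _ _
  haveI hD2 : (⁅⁅DD, DD⁆, DD⁆ : Subgroup G).Normal := Subgroup.commutator_normal _ _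
  haveI hD3 : (⁅⁅⁅DD, DD⁆, DD⁆, DD⁆ : Subgroup G).Normal := Subgroup.commutator_normal _ _
  have hDS : DD ≤ S := inf_le_left.trans B.le
  have hWS : WW ≤ S := T.W_le_Q.trans B.le
  have hmem : ∀ {x}, x ∈ S → x ∈ (WW ⊔ DD) ⊔ Ar := fun h => T.S_eq h
  set A₁ := (VV ⊔ Vr) ⊔ ⁅DD, DD⁆ with hA₁
  set A₂ := ZR ⊔ ⁅⁅DD, DD⁆, DD⁆ with hA₂
  have conjsup : ∀ (X Y : Subgroup G), Y.Normal → (∀ s ∈ S, ∀ c ∈ X, s * c * s⁻¹ ∈ X ⊔ Y) →
      ∀ s ∈ S, ∀ c ∈ X ⊔ Y, s * c * s⁻¹ ∈ X ⊔ Y := by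
    intro X Y hY hX s hs c hc
    have hle : X ⊔ Y ≤ (X ⊔ Y).comap (MulAut.conj s).toMonoidHom :=
      sup_le (fun x hx => hX s hs x hx) (fun y hy => mem_sup_right (hY.conj_mem y hy s))
    exact hle hc
  have hA₁S : ∀ s ∈ S, ∀ c ∈ A₁, s * c * s⁻¹ ∈ A₁ := conjsup _ _ hD1 fun s hs c hc => by
    have h := mul_mem (mem_sup_left (T := Vr) (T.fix_r hs hc)) hc
    exact mem_sup_left (by simpa [commutatorElement_def] using h)
  have hA₂S : ∀ s ∈ S, ∀ c ∈ A₂, s * c * s⁻¹ ∈ A₂ := conjsup _ _ hD2 fun s hs c hc => by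
    rw [conj_fix (mem_centralizer_iff.1 hc.2 s hs)]; exact mem_sup_left hc
  have hVrS : VV ⊔ Vr ≤ S := le_sup_right.trans hWS
  have hFA₁ : FF ≤ A₁ := fun e he => mem_sup_left (mem_sup_left he.1)
  have h1 : ⁅S, S⁆ ≤ A₁ := by
    refine (Subgroup.commutator_mono T.S_eq le_rfl).trans ?_
    refine comm_sup_le (S := S) (sup_le hWS hDS) T.ar_le hA₁S (comm_sup_le (S := S) hWS hDS hA₁S ?_ ?_) ?_
    all_goals rw [Subgroup.commutator_le]; intro x hx s hs
    all_goals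
      obtain ⟨q, hq, a, ha, rfl⟩ := mem_sup_mul (fun a _ => by
        haveI := B.normal; rw [normalizer_eq_top]; exact mem_top a) (T.supr.symm ▸ hs : s ∈ Q ⊔ Ar)
      rw [comm_right_mul]
    · refine mul_mem (hFA₁ (T.comm_W hx hq)) (hA₁S q (B.le hq) _ ?_)
      obtain ⟨u, hu, v, hv, rfl⟩ := T.planeM.split hx
      rw [← commutatorElement_inv]
      refine A₁.inv_mem (mem_sup_left ?_)
      rw [comm_right_mul]
      exact mul_mem (T.planeM.up a ha u hu) (mem_sup_left (hVn.conj_mem _ (T.planeM.fix₁ a ha v hv) u))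
    · refine mul_mem ?_ (hA₁S q (B.le hq) _ ?_)
      · obtain ⟨w, hw, d, hd', rfl⟩ :=
          mem_sup_mul (fun a _ => by haveI := T.W_normal; rw [normalizer_eq_top]; exact mem_top a) (T.Q_le_WD hq)
        rw [comm_right_mul, comm_one (T.D_comm_W hx hw), one_mul]
        exact hA₁S w (hWS hw) _ (mem_sup_right (Subgroup.commutator_mem_commutator hx hd'))
      · rw [← commutatorElement_inv]
        exact A₁.inv_mem (mem_sup_left (mem_sup_left (T.dr a ha x hx)))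
    · refine mul_mem ?_ (hA₁S q (B.le hq) _ ?_)
      · obtain ⟨w, hw, d, hd', rfl⟩ :=
          mem_sup_mul (fun a _ => by haveI := T.W_normal; rw [normalizer_eq_top]; exact mem_top a) (T.Q_le_WD hq)
        rw [comm_right_mul]
        refine mul_mem ?_ (hA₁S w (hWS hw) _ (mem_sup_left (mem_sup_left (T.dr x hx d hd'))))
        obtain ⟨u, hu, v, hv, rfl⟩ := T.planeM.split hw
        refine mem_sup_left ?_
        rw [comm_right_mul]
        exact mul_mem (T.planeM.up x hx u hu) (mem_sup_left (hVn.conj_mem _ (T.planeM.fix₁ x hx v hv) u))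
      · rw [comm_one (T.arab x hx a ha)]; exact one_mem _
  have hA₁le : A₁ ≤ S := sup_le hVrS ((Subgroup.commutator_le_right _ _).trans hDS)
  have h2 : ⁅A₁, S⁆ ≤ A₂ := by
    refine comm_sup_le (S := S) hVrS ((Subgroup.commutator_le_right _ _).trans hDS) hA₂S
      (comm_sup_le (S := S) (le_sup_left.trans hVrS) (le_sup_right.trans hVrS) hA₂S ?_ ?_) ?_
    all_goals rw [Subgroup.commutator_le]; intro x hx s hs
    · rw [← commutatorElement_inv]
      exact A₂.inv_mem (mem_sup_left (T.quad_r hs hx))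
    · obtain ⟨q, hq, a, ha, rfl⟩ := mem_sup_mul (fun a _ => by
        haveI := B.normal; rw [normalizer_eq_top]; exact mem_top a) (T.supr.symm ▸ hs : s ∈ Q ⊔ Ar)
      rw [comm_right_mul, comm_one (T.arvr a ha x hx).symm, mul_one, mul_inv_cancel, mul_one]
      exact mem_sup_left (T.F_le_ZR (T.commr x hx q hq))
    · obtain ⟨q, hq, a, ha, rfl⟩ := mem_sup_mul (fun a _ => by
        haveI := B.normal; rw [normalizer_eq_top]; exact mem_top a) (T.supr.symm ▸ hs : s ∈ Q ⊔ Ar)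
      obtain ⟨w, hw, d, hd', rfl⟩ :=
        mem_sup_mul (fun a _ => by haveI := T.W_normal; rw [normalizer_eq_top]; exact mem_top a) (T.Q_le_WD hq)
      rw [comm_right_mul, comm_one (T.ar_comm_D' ha hx).symm, mul_one, mul_inv_cancel, mul_one,
        comm_right_mul, comm_one (T.D_comm_W ((Subgroup.commutator_le_right _ _) hx) hw), one_mul]
      exact hA₂S w (hWS hw) _ (mem_sup_right (Subgroup.commutator_mem_commutator hx hd'))
  have h3 : ⁅A₂, S⁆ ≤ ⁅⁅⁅DD, DD⁆, DD⁆, DD⁆ := by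
    refine comm_sup_le (S := S) (inf_le_left.trans ((omZ_le p Q).trans B.le))
      ((Subgroup.commutator_le_right _ _).trans hDS) (fun s _ c hc => hD3.conj_mem c hc s) ?_ ?_
    all_goals rw [Subgroup.commutator_le]; intro x hx s hs
    · rw [comm_one (mem_centralizer_iff.1 hx.2 s hs).symm]; exact one_mem _
    · obtain ⟨q, hq, a, ha, rfl⟩ := mem_sup_mul (fun a _ => by
        haveI := B.normal; rw [normalizer_eq_top]; exact mem_top a) (T.supr.symm ▸ hs : s ∈ Q ⊔ Ar)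
      obtain ⟨w, hw, d, hd', rfl⟩ :=
        mem_sup_mul (fun a _ => by haveI := T.W_normal; rw [normalizer_eq_top]; exact mem_top a) (T.Q_le_WD hq)
      have hx' : x ∈ ⁅DD, DD⁆ := (Subgroup.commutator_le_left _ _) hx
      rw [comm_right_mul, comm_one (T.ar_comm_D' ha hx').symm, mul_one, mul_inv_cancel, mul_one,
        comm_right_mul, comm_one (T.D_comm_W ((Subgroup.commutator_le_right _ _) hx) hw), one_mul]
      exact hD3.conj_mem _ (Subgroup.commutator_mem_commutator hx hd') w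
  have hle : ⁅⁅⁅S, S⁆, S⁆, S⁆ ≤ ⁅⁅⁅DD, DD⁆, DD⁆, DD⁆ :=
    (Subgroup.commutator_mono ((Subgroup.commutator_mono h1 le_rfl).trans h2) le_rfl).trans h3
  have heq : ⁅⁅⁅S, S⁆, S⁆, S⁆ = ⁅⁅⁅DD, DD⁆, DD⁆, DD⁆ := le_antisymm hle
    (Subgroup.commutator_mono (Subgroup.commutator_mono (Subgroup.commutator_mono hDS hDS) hDS) hDS)
  by_contra hne
  refine hd (⁅⁅⁅(⊤ : Subgroup S), (⊤ : Subgroup S)⁆, (⊤ : Subgroup S)⁆, (⊤ : Subgroup S)⁆)
    ?_ inferInstance ?_
  · intro h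
    apply hne
    rw [← Subgroup.map_bot S.subtype, ← h, Subgroup.map_commutator, Subgroup.map_commutator,
      Subgroup.map_commutator, ← MonoidHom.range_eq_map, Subgroup.range_subtype]
  · rw [Subgroup.map_commutator, Subgroup.map_commutator, Subgroup.map_commutator,
      ← MonoidHom.range_eq_map, Subgroup.range_subtype, heq]
    exact hD3

theorem pow_nine (hp3 : p = 3) (hd : ∀ K : Subgroup S, K ≠ ⊥ → K.Characteristic → ¬ (K.map S.subtype).Normal)
    {s : G} (hs : s ∈ S) : s ^ 9 = 1 := by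
  have B := T.base
  haveI hWn := T.W_normal
  haveI hDn := T.D_normal
  have key : ∀ t ∈ S, ∃ d ∈ DD, t ^ 9 = d ^ 9 := by
    intro t ht
    obtain ⟨q, hq, a, ha, rfl⟩ := mem_sup_mul (fun a _ => by
      haveI := B.normal; rw [normalizer_eq_top]; exact mem_top a) (T.supr.symm ▸ ht : t ∈ Q ⊔ Ar)
    obtain ⟨w, hw, d, hd', rfl⟩ :=
      mem_sup_mul (fun a _ => by rw [normalizer_eq_top]; exact mem_top a) (T.Q_le_WD hq)
    refine ⟨d, hd', ?_⟩
    set π := QuotientGroup.mk' (WW)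
    have hc : Commute (π a) (π d) := by
      have h : π ⁅a, d⁆ = 1 := (QuotientGroup.eq_one_iff _).2 (T.ar_comm_Q ha hd'.1)
      rw [map_commutatorElement] at h
      exact commutatorElement_eq_one_iff_commute.1 h
    have h3 : π ((w * d * a) ^ 3) = π (d ^ 3) := by
      rw [map_pow, map_pow, map_mul, map_mul, show π w = 1 from (QuotientGroup.eq_one_iff w).2 hw,
        one_mul, hc.symm.mul_pow, ← map_pow π a, show a ^ 3 = 1 from hp3 ▸ T.expar a ha, map_one, mul_one]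
    obtain ⟨w', hw', e⟩ : ∃ w' ∈ WW, (w * d * a) ^ 3 = d ^ 3 * w' :=
      ⟨(d ^ 3)⁻¹ * (w * d * a) ^ 3, QuotientGroup.eq.1 h3.symm, by rw [mul_inv_cancel_left]⟩
    rw [show (9 : ℕ) = 3 * 3 from rfl, pow_mul, e,
      (Commute.pow_left (show Commute d w' from T.D_comm_W hd' hw') 3).mul_pow, ← pow_mul,
      show w' ^ 3 = 1 from hp3 ▸ T.W_exp (by omega) hw', mul_one]
  set K : Subgroup G := Subgroup.closure ((fun a => a ^ 9) '' ((DD : Subgroup G) : Set G)) with hK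
  have hKS : K = Subgroup.closure ((fun a => a ^ 9) '' (S : Set G)) := by
    refine le_antisymm (closure_mono (Set.image_mono fun x hx => B.le hx.1)) ((closure_le _).2 ?_)
    rintro _ ⟨t, ht, rfl⟩
    obtain ⟨d, hd', e⟩ := key t ht
    exact subset_closure ⟨d, hd', e.symm⟩
  have hKn : K.Normal := by
    refine ⟨fun a ha g => ?_⟩
    have hle : K ≤ K.comap (MulAut.conj g).toMonoidHom := (closure_le _).2 (by
      rintro _ ⟨t, ht, rfl⟩
      exact subset_closure ⟨g * t * g⁻¹, hDn.conj_mem t ht g, by simp⟩)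
    exact hle ha
  set K₀ : Subgroup S := Subgroup.closure ((fun a : S => a ^ 9) '' Set.univ) with hK₀
  have hmap : K₀.map S.subtype = K := by
    rw [hKS, hK₀, MonoidHom.map_closure]
    congr 1
    ext y
    constructor
    · rintro ⟨_, ⟨x, -, rfl⟩, rfl⟩; exact ⟨x, x.2, rfl⟩
    · rintro ⟨x, hx, rfl⟩; exact ⟨_, ⟨⟨x, hx⟩, trivial, rfl⟩, rfl⟩
  by_contra hne
  refine hd K₀ (fun h => hne ?_) ?_ (hmap ▸ hKn)
  · have : (⟨s, hs⟩ : S) ^ 9 ∈ K₀ := subset_closure ⟨_, trivial, rfl⟩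
    rw [h, mem_bot] at this
    exact congrArg Subtype.val this
  · refine Subgroup.characteristic_iff_map_le.2 fun φ => ?_
    rw [hK₀, MonoidHom.map_closure]
    refine closure_mono ?_
    rintro _ ⟨_, ⟨x, -, rfl⟩, rfl⟩
    exact ⟨φ x, trivial, by simp⟩

theorem not_exp_three : ∃ s ∈ S, s ^ 3 ≠ 1 := by
  by_contra h
  push Not at h
  obtain ⟨a, ha, u, hu, -, hne⟩ := T.exists_double
  apply hne
  have key : ∀ x ∈ S, ∀ y ∈ S, Commute x (y * x * y⁻¹) := by
    intro x hx y hy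
    have i1 : y * x * y = x⁻¹ * y⁻¹ * x⁻¹ := by
      have := h _ (S.mul_mem hx hy)
      calc y * x * y = x⁻¹ * ((x * y) ^ 3) * y⁻¹ * x⁻¹ := by rw [pow_succ, pow_two]; group
        _ = _ := by rw [this, mul_one]
    have i2 : x * y⁻¹ * x = y * x⁻¹ * y := by
      have := h _ (S.mul_mem hx (S.inv_mem hy))
      calc x * y⁻¹ * x = (x * y⁻¹) ^ 3 * (y * x⁻¹ * y) := by rw [pow_succ, pow_two]; group
        _ = _ := by rw [this, one_mul]
    have hy3 : y * y * y = 1 := by have := h y hy; rwa [pow_succ, pow_two] at this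
    have hy' : y * y = y⁻¹ := eq_inv_of_mul_eq_one_left hy3
    have e2 : y⁻¹ * y⁻¹ = y := by rw [← mul_inv_rev, hy', inv_inv]
    show x * (y * x * y⁻¹) = y * x * y⁻¹ * x
    calc x * (y * x * y⁻¹) = x * (y * x * y) * (y⁻¹ * y⁻¹) := by group
      _ = x * (x⁻¹ * y⁻¹ * x⁻¹) * y := by rw [i1, e2]
      _ = y⁻¹ * x⁻¹ * y := by group
      _ = (y * y) * x⁻¹ * y := by rw [hy']
      _ = y * (y * x⁻¹ * y) := by group
      _ = y * (x * y⁻¹ * x) := by rw [i2]
      _ = _ := by group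
  have hax : Commute a ⁅a, u⁆ := by
    rw [commutatorElement_def, mul_assoc, mul_assoc]
    refine Commute.mul_right (Commute.refl a) ?_
    rw [← mul_assoc]
    have hc := (key a (T.ar_le ha) u (T.W_le_Q.trans T.base.le hu)).inv_right
    simpa [mul_assoc] using hc
  rw [comm_one hax]
  exact one_mem _

theorem hyper (hd : ∀ K : Subgroup S, K ≠ ⊥ → K.Characteristic → ¬ (K.map S.subtype).Normal) :
    Cfsg.iterCommutator Q ⊤ 3 ≤ WW := by
  have B := T.base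
  haveI := B.normal
  haveI hWn := T.W_normal
  haveI hQ1 : (⁅Q, Q⁆ : Subgroup G).Normal := Subgroup.commutator_normal Q Q
  haveI hQ2 : (⁅⁅Q, Q⁆, Q⁆ : Subgroup G).Normal := Subgroup.commutator_normal _ _
  have step : ∀ (R R' : Subgroup G) [R.Normal] [R'.Normal], R ≤ Q → ⁅Q, R⁆ ≤ R' →
      ⁅R, (⊤ : Subgroup G)⁆ ≤ WW ⊔ R' := by
    intro R R' _ _ hRQ hR'
    have htop : secKer R (WW ⊔ R') = ⊤ := by
      refine B.eq_top_of_S_le (secKer_normal inferInstance) ?_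
      rw [← T.supr]
      exact sup_le (fun q hq x hx => mem_sup_right (hR' (Subgroup.commutator_mem_commutator hq hx)))
        (fun a ha x hx => mem_sup_left (T.ar_comm_Q ha (hRQ hx)))
    rw [Subgroup.commutator_le]
    intro r hr g _
    rw [← commutatorElement_inv]
    exact inv_mem ((htop.ge (mem_top g) : g ∈ secKer R (WW ⊔ R')) r hr)
  have hb : ⁅(WW), (⊤ : Subgroup G)⁆ ≤ WW := Subgroup.commutator_le_left _ _
  have hgam := T.gamma_four hd
  have h1 : Cfsg.iterCommutator Q ⊤ 1 ≤ WW ⊔ ⁅Q, Q⁆ := step Q ⁅Q, Q⁆ le_rfl le_rfl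
  have h2 : Cfsg.iterCommutator Q ⊤ 2 ≤ WW ⊔ ⁅⁅Q, Q⁆, Q⁆ := by
    refine (Subgroup.commutator_mono h1 le_rfl).trans (comm_sup_le (S := ⊤) le_top le_top
      (fun g _ c hc => (inferInstance : (WW ⊔ ⁅⁅Q, Q⁆, Q⁆).Normal).conj_mem c hc g)
      (hb.trans le_sup_left) ?_)
    exact step ⁅Q, Q⁆ ⁅⁅Q, Q⁆, Q⁆ (Subgroup.commutator_le_right Q Q)
      (le_of_eq (Subgroup.commutator_comm Q ⁅Q, Q⁆))
  refine (Subgroup.commutator_mono h2 le_rfl).trans (comm_sup_le (S := ⊤) le_top le_top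
    (fun g _ c hc => hWn.conj_mem c hc g) hb ?_)
  rw [Subgroup.commutator_le]
  intro r hr g _
  haveI : (centralizer ((⁅⁅Q, Q⁆, Q⁆ : Subgroup G) : Set G)).Normal := inferInstance
  have hC : centralizer ((⁅⁅Q, Q⁆, Q⁆ : Subgroup G) : Set G) = ⊤ := by
    refine B.eq_top_of_S_le inferInstance fun s hs => mem_centralizer_iff.2 fun r hr => ?_
    have hmem : ⁅r, s⁆ ∈ ⁅⁅⁅S, S⁆, S⁆, S⁆ := Subgroup.commutator_mem_commutator
      (Subgroup.commutator_mono (Subgroup.commutator_mono B.le B.le) B.le hr) hs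
    rw [hgam, mem_bot] at hmem
    exact commutatorElement_eq_one_iff_commute.1 hmem
  rw [comm_one (mem_centralizer_iff.1 (hC.ge (mem_top g)) r hr)]
  exact one_mem _

end TwoLocal

end Cfsg.Agent.PushUp
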